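import Mathlib
import Cfsg.Agent.Lib.Solvable.Basic
import Cfsg.Agent.Lib.Solvable.Hall
import Cfsg.Agent.Lib.Solvable.HallRel
import Cfsg.Agent.Lib.Coprime.Maschke

/-!
# P. Hall's theorem on the number of Hall subgroups of a solvable group
-/

set_option autoImplicit false

namespace Cfsg.Agent.Lib.FG7.HallCount

open Subgroup Cfsg.Agent.Lib.Solvable.Basic Cfsg.Agent.Lib.Coprime.Action
open scoped Pointwise

universe u

/-- A solvable group of automorphisms acting irreducibly: the order of the group acted on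
is congruent to one modulo a prime dividing the order of the group of automorphisms. -/
theorem card_modEq_one {M : Type*} [Group M] [Finite M] (Im : Subgroup (MulAut M))
    [hS : Group.IsSolvable Im] (hne : Im ≠ ⊥)
    (hirr : ∀ X : Subgroup M, (∀ φ ∈ Im, ∀ x ∈ X, φ x ∈ X) → X = ⊥ ∨ X = ⊤) :
    ∃ r : ℕ, r.Prime ∧ r ∣ Nat.card Im ∧ Nat.card M ≡ 1 [MOD r] := by
  classical
  haveI : Nontrivial Im := (Subgroup.nontrivial_iff_ne_bot Im).mpr hne
  obtain ⟨U, r, hr, hmin, -, hexp⟩ := exists_normal_elemAbelian (G := Im)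
  haveI hrf : Fact r.Prime := ⟨hr⟩
  have hUn : U.Normal := hmin.1
  have hp : IsPGroup r U := by
    intro x
    exact ⟨1, Subtype.ext (by simpa using hexp x x.2)⟩
  have hmod := hp.card_modEq_card_fixedPoints M
  -- the fixed points form a subgroup
  let X : Subgroup M :=
    { carrier := {m | ∀ u : U, ((u : Im) : MulAut M) m = m}
      one_mem' := fun u => map_one _
      mul_mem' := by
        intro a b ha hb u
        rw [map_mul, ha u, hb u]
      inv_mem' := by
        intro a ha u
        rw [map_inv, ha u] }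
  have hXinv : ∀ φ ∈ Im, ∀ x ∈ X, φ x ∈ X := by
    intro φ hφ x hx u
    have h1 : (⟨φ, hφ⟩ : Im)⁻¹ * (u : Im) * (⟨φ, hφ⟩ : Im)⁻¹⁻¹ ∈ U :=
      hUn.conj_mem _ u.2 _
    have h2 := hx ⟨_, h1⟩
    have h3 : φ⁻¹ (((u : Im) : MulAut M) (φ x)) = x := by
      have := h2
      simpa [MulAut.mul_apply] using this
    have h4 : ((u : Im) : MulAut M) (φ x) = φ x := by
      have := congrArg φ h3
      simpa using this
    exact h4
  have hUne : U ≠ ⊥ := hmin.2.1
  have hXtop : X ≠ ⊤ := by
    intro hX
    apply hUne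
    rw [eq_bot_iff]
    intro u hu
    have h1 : (u : MulAut M) = 1 := by
      ext m
      have h2 : m ∈ X := by rw [hX]; trivial
      exact h2 ⟨u, hu⟩
    exact (Subgroup.mem_bot).mpr (Subtype.ext h1)
  have hXbot : X = ⊥ := (hirr X hXinv).resolve_right hXtop
  have hfix : Nat.card (MulAction.fixedPoints U M) = 1 := by
    rw [Nat.card_eq_one_iff_unique]
    constructor
    · constructor
      rintro ⟨a, ha⟩ ⟨b, hb⟩
      have ha' : a ∈ X := fun u => ha u
      have hb' : b ∈ X := fun u => hb u
      rw [hXbot, Subgroup.mem_bot] at ha' hb'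
      exact Subtype.ext (ha'.trans hb'.symm)
    · exact ⟨⟨1, fun u => map_one _⟩⟩
  rw [hfix] at hmod
  refine ⟨r, hr, ?_, hmod⟩
  obtain ⟨⟨u, hu⟩, hu1⟩ := Subgroup.ne_bot_iff_exists_ne_one.mp hUne
  have hu1' : u ≠ 1 := fun h => hu1 (Subtype.ext h)
  have ho : orderOf u = r := orderOf_eq_prime (hexp u hu) hu1'
  rw [← ho]
  exact orderOf_dvd_natCard u

section Fact

variable {G : Type u} [Group G] [Finite G]

/-- Complements in elementary abelian groups. -/
theorem exists_compl {U M : Subgroup G} {q : ℕ} (hq : q.Prime)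
    (hc : ∀ x ∈ U, ∀ y ∈ U, x * y = y * x) (hexp : ∀ x ∈ U, x ^ q = 1) (hMU : M ≤ U) :
    ∃ W : Subgroup G, W ≤ U ∧ M ⊓ W = ⊥ ∧ M ⊔ W = U := by
  classical
  obtain ⟨W, hW⟩ := Set.Finite.exists_maximal
    (Set.toFinite {W : Subgroup G | W ≤ U ∧ M ⊓ W = ⊥}) ⟨⊥, bot_le, inf_bot_eq _⟩
  refine ⟨W, hW.prop.1, hW.prop.2, le_antisymm (sup_le hMU hW.prop.1) ?_⟩
  intro x hxU
  by_contra hx
  have hxW : x ∉ W := fun h => hx (mem_sup_right h)
  have hWU : W ≤ U := hW.prop.1
  have hMW : M ⊓ W = ⊥ := hW.prop.2
  have hle : W ⊔ zpowers x ≤ U := sup_le hWU (zpowers_le.mpr hxU)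
  have hnorm : zpowers x ≤ normalizer (W : Set G) := by
    rw [zpowers_le]
    rw [mem_normalizer_iff]
    intro h
    constructor
    · intro hh
      have : x * h * x⁻¹ = h := by
        rw [hc x hxU h (hWU hh)]
        group
      rwa [this]
    · intro hh
      have h1 : x * h * x⁻¹ ∈ U := by
        refine mul_mem (mul_mem hxU ?_) (inv_mem hxU)
        have h2 := hWU hh
        have h3 : h = x⁻¹ * (x * h * x⁻¹) * x := by group
        rw [h3]
        exact mul_mem (mul_mem (inv_mem hxU) h2) hxU
      have h4 : h = x⁻¹ * (x * h * x⁻¹) * x := by group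
      rw [h4, hc x⁻¹ (inv_mem hxU) _ h1, mul_assoc, inv_mul_cancel, mul_one]
      exact hh
  have hinf : M ⊓ (W ⊔ zpowers x) = ⊥ := by
    rw [eq_bot_iff]
    rintro y ⟨hyM, hyS⟩
    obtain ⟨w, hw, z, hz, rfl⟩ := exists_mul_of_mem_sup hnorm hyS
    obtain ⟨i, rfl⟩ := (mem_powers_iff_mem_zpowers.mpr hz : z ∈ Submonoid.powers x) |> (Submonoid.mem_powers_iff _ _).mp
    by_cases hqi : q ∣ i
    · obtain ⟨t, rfl⟩ := hqi
      rw [pow_mul, hexp x hxU, one_pow, mul_one] at hyM ⊢
      have : w ∈ M ⊓ W := ⟨hyM, hw⟩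
      rw [hMW] at this
      exact this
    · exfalso
      apply hx
      have hcop : i.Coprime q := ((hq.coprime_iff_not_dvd).mpr hqi).symm
      obtain ⟨a, -, ha⟩ := Nat.exists_mul_mod_eq_one_of_coprime hcop hq.one_lt
      have h1 : (x ^ i) ^ a = x := by
        rw [← pow_mul]
        conv_lhs => rw [← Nat.div_add_mod (i * a) q, pow_add, pow_mul, hexp x hxU, one_pow, one_mul, ha, pow_one]
      have h2 : Commute w (x ^ i) := hc w (hWU hw) _ (pow_mem hxU i)
      have h3 : x ^ i = w⁻¹ * (w * x ^ i) := by group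
      have h4 : x = (w⁻¹) ^ a * (w * x ^ i) ^ a := by
        have h5 : Commute w⁻¹ (w * x ^ i) := by
          exact (Commute.refl w).inv_left.mul_right h2.inv_left
        rw [← h5.mul_pow, ← h3, h1]
      rw [h4]
      exact mul_mem (mem_sup_right (pow_mem (inv_mem hw) a)) (mem_sup_left (pow_mem hyM a))
  have hmax := hW.le_of_ge (show W ⊔ zpowers x ∈ {W : Subgroup G | W ≤ U ∧ M ⊓ W = ⊥} from ⟨hle, hinf⟩) le_sup_left
  exact hxW (hmax (mem_sup_right (mem_zpowers x)))

theorem le_norm_of_comm {A B : Subgroup G} (h : ∀ a ∈ A, ∀ b ∈ B, a * b = b * a) :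
    A ≤ normalizer (B : Set G) := by
  intro a ha
  rw [mem_normalizer_iff]
  intro b
  constructor
  · intro hb
    rw [h a ha b hb, mul_inv_cancel_right]
    exact hb
  · intro hb
    have h1 := h a ha _ hb
    have h2 : a * b * a⁻¹ = b := by
      have h3 : a * (a * b * a⁻¹) = a * b := by
        rw [h1]
        group
      exact mul_left_cancel h3
    rwa [h2] at hb

/-- The fixed points in a direct product. -/
theorem card_inf_centralizer {U M W A : Subgroup G}
    (hc : ∀ x ∈ U, ∀ y ∈ U, x * y = y * x) (hMU : M ≤ U) (hWU : W ≤ U) (hMW : M ⊓ W = ⊥)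
    (hsup : M ⊔ W = U) (hAM : A ≤ normalizer (M : Set G)) (hAW : A ≤ normalizer (W : Set G)) :
    Nat.card (U ⊓ centralizer (A : Set G) : Subgroup G) =
      Nat.card (M ⊓ centralizer (A : Set G) : Subgroup G) *
        Nat.card (W ⊓ centralizer (A : Set G) : Subgroup G) := by
  set C := centralizer (A : Set G) with hC
  have hnorm : W ≤ normalizer (M : Set G) :=
    le_norm_of_comm fun a ha b hb => hc a (hWU ha) b (hMU hb)
  have hnorm' : W ⊓ C ≤ normalizer ((M ⊓ C : Subgroup G) : Set G) :=
    le_norm_of_comm fun a ha b hb => hc a (hWU ha.1) b (hMU hb.1)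
  have hinf : (M ⊓ C) ⊓ (W ⊓ C) = ⊥ := by
    rw [eq_bot_iff]
    rintro x ⟨⟨hx1, -⟩, ⟨hx2, -⟩⟩
    have : x ∈ M ⊓ W := ⟨hx1, hx2⟩
    rwa [hMW] at this
  have hsup' : (M ⊓ C) ⊔ (W ⊓ C) = U ⊓ C := by
    apply le_antisymm
    · apply sup_le
      · exact inf_le_inf_right _ hMU
      · exact inf_le_inf_right _ hWU
    · rintro u ⟨huU, huC⟩
      rw [← hsup] at huU
      obtain ⟨m, hm, w, hw, rfl⟩ := exists_mul_of_mem_sup hnorm huU
      have key : ∀ a ∈ A, a * m * a⁻¹ = m ∧ a * w * a⁻¹ = w := by
        intro a ha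
        have h1 : a * (m * w) = (m * w) * a := (mem_centralizer_iff.mp huC) a ha
        have h2 : a * m * a⁻¹ ∈ M := (mem_normalizer_iff.mp (hAM ha) m).mp hm
        have h3 : a * w * a⁻¹ ∈ W := (mem_normalizer_iff.mp (hAW ha) w).mp hw
        have h4 : m⁻¹ * (a * m * a⁻¹) = w * (a * w * a⁻¹)⁻¹ := by
          have h5 : a * m * a⁻¹ * (a * w * a⁻¹) = m * w := by
            calc a * m * a⁻¹ * (a * w * a⁻¹) = a * (m * w) * a⁻¹ := by group
              _ = (m * w) * a * a⁻¹ := by rw [h1]
              _ = m * w := by group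
          rw [eq_mul_inv_iff_mul_eq, mul_assoc, h5]
          group
        have h61 : m⁻¹ * (a * m * a⁻¹) ∈ M := mul_mem (inv_mem hm) h2
        have h62 : m⁻¹ * (a * m * a⁻¹) ∈ W := by
          rw [h4]
          exact mul_mem hw (inv_mem h3)
        have h6 : m⁻¹ * (a * m * a⁻¹) ∈ M ⊓ W := Subgroup.mem_inf.mpr ⟨h61, h62⟩
        rw [hMW, mem_bot] at h6
        have h7 : a * m * a⁻¹ = m := by
          have := mul_left_cancel (a := m⁻¹) (h6.trans (inv_mul_cancel m).symm)
          exact this
        refine ⟨h7, ?_⟩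
        rw [h6] at h4
        have h8 : w = a * w * a⁻¹ := by
          exact (mul_inv_eq_one.mp h4.symm)
        exact h8.symm
      have hmC : m ∈ C := by
        rw [hC, mem_centralizer_iff]
        intro a ha
        have := (key a ha).1
        rw [mul_inv_eq_iff_eq_mul] at this
        exact this
      have hwC : w ∈ C := by
        rw [hC, mem_centralizer_iff]
        intro a ha
        have := (key a ha).2
        rw [mul_inv_eq_iff_eq_mul] at this
        exact this
      exact mul_mem (mem_sup_left ⟨hm, hmC⟩) (mem_sup_right ⟨hw, hwC⟩)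
  rw [← hsup']
  exact (card_sup_of_le_normalizer hnorm' hinf).symm

/-- The centralizer of `A` is normalized by `A`. -/
theorem le_norm_centralizer (A : Subgroup G) : A ≤ normalizer ((centralizer (A : Set G) : Subgroup G) : Set G) :=
  le_norm_of_comm fun a ha b hb => (mem_centralizer_iff.mp hb) a ha

theorem le_norm_inf {A X Y : Subgroup G} (h1 : A ≤ normalizer (X : Set G))
    (h2 : A ≤ normalizer (Y : Set G)) : A ≤ normalizer ((X ⊓ Y : Subgroup G) : Set G) := by
  intro a ha
  rw [mem_normalizer_iff]
  intro b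
  have h3 := mem_normalizer_iff.mp (h1 ha) b
  have h4 := mem_normalizer_iff.mp (h2 ha) b
  simp only [mem_inf, h3, h4]

/-- The factorization of `|U : C_U(H₀)|`. -/
theorem fact_list (H₀ : Subgroup G) [hS : Group.IsSolvable H₀] {q : ℕ} (hq : q.Prime)
    (hcop : (Nat.card H₀).Coprime q) : ∀ (n : ℕ) (U : Subgroup G), Nat.card U = n →
      (∀ x ∈ U, ∀ y ∈ U, x * y = y * x) → (∀ x ∈ U, x ^ q = 1) → H₀ ≤ normalizer (U : Set G) →
      ∃ l : List ℕ, Nat.card U = Nat.card (U ⊓ centralizer (H₀ : Set G) : Subgroup G) * l.prod ∧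
        ∀ x ∈ l, (∃ e, x = q ^ e) ∧ x ∣ Nat.card U ∧
          ∃ r : ℕ, r.Prime ∧ r ∣ Nat.card H₀ ∧ x ≡ 1 [MOD r] := by
  classical
  intro n
  induction n using Nat.strong_induction_on with
  | _ n ih =>
  intro U hUn hc hexp hnorm
  by_cases hU : U = ⊥
  · subst hU
    exact ⟨[], by simp, by simp⟩
  haveI hqf : Fact q.Prime := ⟨hq⟩
  have hcardP : ∀ X : Subgroup G, X ≤ U → ∃ k, Nat.card X = q ^ k := by
    intro X hXU
    have hp : IsPGroup q X := by
      intro x
      exact ⟨1, Subtype.ext (by simpa using hexp x (hXU x.2))⟩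
    exact IsPGroup.iff_card.mp hp
  obtain ⟨M, hM⟩ := Set.Finite.exists_minimal
    (Set.toFinite {X : Subgroup G | X ≠ ⊥ ∧ X ≤ U ∧ H₀ ≤ normalizer (X : Set G)})
    ⟨U, hU, le_rfl, hnorm⟩
  obtain ⟨hM1, hMU, hMn⟩ := hM.prop
  have hmin : ∀ X : Subgroup G, X ≠ ⊥ → X ≤ M → H₀ ≤ normalizer (X : Set G) → X = M := by
    intro X hX1 hXM hXn
    exact le_antisymm hXM (hM.le_of_le ⟨hX1, hXM.trans hMU, hXn⟩ hXM)
  obtain ⟨W₀, hW₀U, hW₀1, hW₀2⟩ := exists_compl hq hc hexp hMU
  haveI : IsMulCommutative U := ⟨⟨fun x y => Subtype.ext (hc _ x.2 _ y.2)⟩⟩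
  have hcopU : (Nat.card H₀).Coprime (Nat.card U) := by
    obtain ⟨k, hk⟩ := hcardP U le_rfl
    rw [hk]
    exact hcop.pow_right k
  obtain ⟨W, hWU, hWn, hMW, hsup⟩ := Cfsg.Agent.Lib.Coprime.Maschke.exists_invariant_complement U H₀ M W₀
    hnorm hcopU hMU hMn hW₀U hW₀1 hW₀2
  have hnormMW : W ≤ normalizer (M : Set G) :=
    le_norm_of_comm fun a ha b hb => hc a (hWU ha) b (hMU hb)
  have hcardU : Nat.card M * Nat.card W = Nat.card U := by
    rw [← hsup]
    exact card_sup_of_le_normalizer hnormMW hMW
  have hMcard : 1 < Nat.card M := by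
    haveI : Nontrivial M := (Subgroup.nontrivial_iff_ne_bot M).mpr hM1
    exact Finite.one_lt_card
  have hWpos : 0 < Nat.card W := Nat.card_pos
  have hWlt : Nat.card W < n := by
    rw [← hUn, ← hcardU]
    nlinarith
  obtain ⟨l, hl, hlprop⟩ := ih _ hWlt W rfl (fun x hx y hy => hc x (hWU hx) y (hWU hy))
    (fun x hx => hexp x (hWU hx)) hWn
  have hfix := card_inf_centralizer (A := H₀) hc hMU hWU hMW hsup hMn hWn
  have hWdvd : Nat.card W ∣ Nat.card U := ⟨Nat.card M, by rw [← hcardU, mul_comm]⟩
  by_cases hcent : M ≤ centralizer (H₀ : Set G)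
  · refine ⟨l, ?_, fun x hx => ?_⟩
    · rw [hfix, inf_eq_left.mpr hcent, ← hcardU, mul_assoc, ← hl]
    · obtain ⟨h1, h2, h3⟩ := hlprop x hx
      exact ⟨h1, h2.trans hWdvd, h3⟩
  · have hinf : M ⊓ centralizer (H₀ : Set G) = ⊥ := by
      by_contra hne
      have := hmin _ hne inf_le_left (le_norm_inf hMn (le_norm_centralizer H₀))
      exact hcent (inf_eq_left.mp this)
    refine ⟨Nat.card M :: l, ?_, ?_⟩
    · rw [hfix, hinf, List.prod_cons]
      simp only [Subgroup.card_bot, one_mul]
      rw [← hcardU]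
      nth_rewrite 1 [hl]
      ring
    · intro x hx
      rcases List.mem_cons.mp hx with rfl | hx
      · obtain ⟨k, hk⟩ := hcardP M hMU
        refine ⟨⟨k, hk⟩, ⟨Nat.card W, hcardU.symm⟩, ?_⟩
        -- the irreducible module
        let ρ : H₀ →* MulAut M := (normalizerMonoidHom M).comp (inclusion hMn)
        have hρ : ∀ (h : H₀) (m : M), ((ρ h m : M) : G) = (h : G) * m * (h : G)⁻¹ := fun _ _ => rfl
        haveI hSim : Group.IsSolvable ρ.range := Group.isSolvable_of_surjective ρ.rangeRestrict_surjective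
        have hne : ρ.range ≠ ⊥ := by
          intro hbot
          apply hcent
          intro m hm
          rw [mem_centralizer_iff]
          intro h hh
          have h1 : ρ ⟨h, hh⟩ = 1 := by
            have : ρ ⟨h, hh⟩ ∈ ρ.range := ⟨_, rfl⟩
            rw [hbot] at this
            exact this
          have h2 := congrArg (fun φ : MulAut M => ((φ ⟨m, hm⟩ : M) : G)) h1
          simp only [hρ] at h2
          change h * m * h⁻¹ = m at h2
          rw [mul_inv_eq_iff_eq_mul] at h2
          exact h2
        obtain ⟨r, hr, hrd, hrm⟩ := card_modEq_one ρ.range hne (by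
          intro X hX
          by_cases hX1 : X.map M.subtype = ⊥
          · left
            exact (Subgroup.map_eq_bot_iff_of_injective X M.subtype_injective).mp hX1
          · right
            have hXle : X.map M.subtype ≤ M := by
              rintro _ ⟨x, -, rfl⟩
              exact x.2
            have hXn : H₀ ≤ normalizer ((X.map M.subtype : Subgroup G) : Set G) := by
              intro h hh
              have hstep : ∀ (g : G) (hg : g ∈ H₀) (y : G), y ∈ X.map M.subtype → g * y * g⁻¹ ∈ X.map M.subtype := by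
                rintro g hg _ ⟨y, hy, rfl⟩
                exact ⟨ρ ⟨g, hg⟩ y, hX _ ⟨_, rfl⟩ y hy, rfl⟩
              rw [mem_normalizer_iff]
              intro y
              constructor
              · exact hstep h hh y
              · intro hy
                have := hstep h⁻¹ (inv_mem hh) _ hy
                simpa [mul_assoc] using this
            have hXM := hmin _ hX1 hXle hXn
            rw [eq_top_iff]
            intro x _
            have : (x : G) ∈ X.map M.subtype := by
              rw [hXM]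
              exact x.2
            obtain ⟨y, hy, hyx⟩ := this
            have : y = x := Subtype.ext hyx
            rwa [← this])
        exact ⟨r, hr, hrd.trans (Subgroup.card_range_dvd ρ), hrm⟩
      · obtain ⟨h1, h2, h3⟩ := hlprop x hx
        exact ⟨h1, h2.trans hWdvd, h3⟩

end Fact

section Count

open Cfsg.Agent.Lib.Solvable.Hall Cfsg.Agent.Lib.Solvable.HallRel

/-- The properties of the factors. -/
def Good (G : Type u) [Group G] (m x : ℕ) : Prop :=
  (∃ q e : ℕ, q.Prime ∧ x = q ^ e) ∧
  (∃ K L : Subgroup G, K.Normal ∧ L.Normal ∧ K < L ∧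
    (∀ M : Subgroup G, M.Normal → K ≤ M → M ≤ L → M = K ∨ M = L) ∧ x ∣ K.relIndex L) ∧
  (∃ q : ℕ, q.Prime ∧ q ∣ m ∧ x ≡ 1 [MOD q])

variable {G : Type u} [Group G] [Finite G]

omit [Finite G] in
theorem Good.lift (N : Subgroup G) [hN : N.Normal] {m' m x : ℕ} (h : Good (G ⧸ N) m' x)
    (hmm : ∀ q : ℕ, q.Prime → q ∣ m' → q ∣ m) : Good G m x := by
  obtain ⟨h1, ⟨K, L, hK, hL, hKL, hchief, hx⟩, ⟨q, hq, hqm, hxq⟩⟩ := h
  refine ⟨h1, ?_, ⟨q, hq, hmm q hq hqm, hxq⟩⟩
  set π := QuotientGroup.mk' N with hπ
  have hsurj : Function.Surjective π := QuotientGroup.mk'_surjective N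
  have hNK : ∀ X : Subgroup (G ⧸ N), N ≤ X.comap π := by
    intro X n hn
    have : π n = 1 := (QuotientGroup.eq_one_iff n).mpr hn
    rw [mem_comap, this]
    exact one_mem _
  refine ⟨K.comap π, L.comap π, hK.comap π, hL.comap π, ?_, ?_, ?_⟩
  · refine lt_of_le_of_ne (comap_mono hKL.le) ?_
    intro heq
    exact hKL.ne (comap_injective hsurj heq)
  · intro M hM hKM hML
    have hNM : N ≤ M := (hNK K).trans hKM
    have hmap : (M.map π).comap π = M := by
      rw [comap_map_eq_self]
      rwa [hπ, QuotientGroup.ker_mk']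
    have h2 : K ≤ M.map π := by
      rw [← map_comap_eq_self_of_surjective hsurj K]
      exact map_mono hKM
    have h3 : M.map π ≤ L := by
      rw [← map_comap_eq_self_of_surjective hsurj L]
      exact map_mono hML
    rcases hchief _ (hM.map π hsurj) h2 h3 with h4 | h4
    · left
      rw [← h4, hmap]
    · right
      rw [← h4, hmap]
  · rw [relIndex_comap, map_comap_eq_self_of_surjective hsurj]
    exact hx

/-- The bijection in the case `N` is contained in all the Hall subgroups. -/
theorem count_eq_of_le (N : Subgroup G) [hN : N.Normal] {m m' : ℕ} (hm : m = m' * Nat.card N)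
    (hle : ∀ H : Subgroup G, Nat.card H = m → N ≤ H) :
    Nat.card {H : Subgroup G // Nat.card H = m} = Nat.card {H : Subgroup (G ⧸ N) // Nat.card H = m'} := by
  set π := QuotientGroup.mk' N with hπ
  have hsurj : Function.Surjective π := QuotientGroup.mk'_surjective N
  let f : {H : Subgroup (G ⧸ N) // Nat.card H = m'} → {H : Subgroup G // Nat.card H = m} :=
    fun H => ⟨H.1.comap π, by rw [card_comap_mk', H.2, hm]⟩
  have hf : Function.Bijective f := by
    constructor
    · intro x y hxy
      apply Subtype.ext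
      exact comap_injective hsurj (congrArg Subtype.val hxy)
    · rintro ⟨H, hH⟩
      have hNH := hle H hH
      have hcomap : (H.map π).comap π = H := by
        rw [comap_map_eq_self]
        rwa [hπ, QuotientGroup.ker_mk']
      have hcard : Nat.card (H.map π) = m' := by
        have h1 := card_comap_mk' N (H.map π)
        rw [← hπ, hcomap, hH, hm] at h1
        exact (Nat.eq_of_mul_eq_mul_right Nat.card_pos h1).symm
      exact ⟨⟨H.map π, hcard⟩, Subtype.ext hcomap⟩
  exact (Nat.card_eq_of_bijective f hf).symm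

theorem le_of_coprime (N H : Subgroup G) [hN : N.Normal] {m n : ℕ} (hG : Nat.card G = m * n)
    (hH : Nat.card H = m) (hNn : (Nat.card N).Coprime n) : N ≤ H := by
  have h1 := card_sup_mul_card_inf H N
  have hm : 0 < m := hH ▸ Nat.card_pos
  obtain ⟨t, ht⟩ : Nat.card H ∣ Nat.card (H ⊔ N : Subgroup G) :=
    Subgroup.card_dvd_of_le le_sup_left
  have h2 : Nat.card (H ⊔ N : Subgroup G) ∣ m * n := hG ▸ Subgroup.card_subgroup_dvd_card _
  rw [ht, hH] at h2
  have h3 : t ∣ n := Nat.dvd_of_mul_dvd_mul_left hm h2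
  rw [ht, hH, mul_assoc] at h1
  have h4 : t * Nat.card (H ⊓ N : Subgroup G) = Nat.card N := Nat.eq_of_mul_eq_mul_left hm h1
  have h5 : t ∣ Nat.card N := ⟨_, h4.symm⟩
  have h6 : t = 1 := Nat.eq_one_of_dvd_coprimes hNn h5 h3
  have h7 : H ⊔ N = H := by
    symm
    apply Subgroup.eq_of_le_of_card_ge le_sup_left
    rw [ht, h6, mul_one]
  rw [← h7]
  exact le_sup_right

theorem card_map_mk (N H : Subgroup G) [hN : N.Normal] (hcop : (Nat.card H).Coprime (Nat.card N)) :
    Nat.card (H.map (QuotientGroup.mk' N)) = Nat.card H := by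
  have h1 := card_comap_mk' N (H.map (QuotientGroup.mk' N))
  have h2 : (H.map (QuotientGroup.mk' N)).comap (QuotientGroup.mk' N) = H ⊔ N := by
    rw [comap_map_eq, QuotientGroup.ker_mk']
  rw [h2] at h1
  have h3 := card_sup_mul_card_inf H N
  rw [disjoint_iff.mp (disjoint_of_coprime_natCard hcop), Subgroup.card_bot, mul_one, h1] at h3
  exact Nat.eq_of_mul_eq_mul_right Nat.card_pos h3

/-- The number of Hall subgroups with a given image. -/
theorem fiber_card [Group.IsSolvable G] (N H : Subgroup G) [hN : N.Normal]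
    (hcop : (Nat.card H).Coprime (Nat.card N)) :
    Nat.card {K : Subgroup G // Nat.card K = Nat.card H ∧
        K.map (QuotientGroup.mk' N) = H.map (QuotientGroup.mk' N)} *
      Nat.card (N ⊓ centralizer (H : Set G) : Subgroup G) = Nat.card N := by
  classical
  letI act : MulAction ↥N (Subgroup G) :=
    MulAction.compHom (Subgroup G) ((MulAut.conj : G →* MulAut G).comp N.subtype)
  have hsmul : ∀ (x : N) (K : Subgroup G), x • K = MulAut.conj (x : G) • K := fun _ _ => rfl
  have hinf : H ⊓ N = ⊥ := disjoint_iff.mp (disjoint_of_coprime_natCard hcop)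
  set π := QuotientGroup.mk' N with hπ
  -- description of the orbit
  have horbit : ∀ K : Subgroup G, K ∈ MulAction.orbit ↥N H ↔
      Nat.card K = Nat.card H ∧ K.map π = H.map π := by
    intro K
    constructor
    · rintro ⟨x, rfl⟩
      refine ⟨?_, ?_⟩
      · change Nat.card ((MulAut.conj (x : G) • H : Subgroup G)) = _
        exact card_conj_smul _ _
      · change (MulAut.conj (x : G) • H).map π = _
        rw [map_conj_smul]
        have : π (x : G) = 1 := (QuotientGroup.eq_one_iff _).mpr x.2
        rw [this, map_one, one_smul]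
    · rintro ⟨hKH, hmap⟩
      have hKL : K ≤ (H.map π).comap π := by
        rw [← hmap]
        exact le_comap_map _ _
      have hHL : H ≤ (H.map π).comap π := le_comap_map _ _
      set L := (H.map π).comap π with hL
      have hcardmap := card_map_mk N H hcop
      have hcardL : Nat.card L = Nat.card H * Nat.card N := by
        rw [hL, card_comap_mk', hcardmap]
      have hrel : H.relIndex L = Nat.card N := by
        have h1 : Nat.card H * H.relIndex L = Nat.card L := by
          have := Subgroup.relIndex_mul_relIndex (⊥ : Subgroup G) H L bot_le hHL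
          rwa [Subgroup.relIndex_bot_left, Subgroup.relIndex_bot_left] at this
        rw [hcardL] at h1
        exact Nat.eq_of_mul_eq_mul_left Nat.card_pos h1
      obtain ⟨l, hl, hlK⟩ := exists_conj_eq_of_le (L := L) inferInstance hHL hKL (hrel ▸ hcop) hKH
      obtain ⟨h, hh, hhl⟩ : ∃ h ∈ H, π h = π l := hl
      have hx : l * h⁻¹ ∈ N := by
        have h1 : π (l * h⁻¹) = 1 := by
          rw [map_mul, map_inv, ← hhl, mul_inv_cancel]
        exact (QuotientGroup.eq_one_iff _).mp h1
      refine ⟨⟨l * h⁻¹, hx⟩, ?_⟩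
      change MulAut.conj (l * h⁻¹) • H = K
      rw [← hlK]
      have h2 : l * h⁻¹ = l * h⁻¹ := rfl
      have h3 : MulAut.conj l • H = MulAut.conj (l * h⁻¹) • (MulAut.conj h • H) := by
        rw [← mul_smul, ← map_mul]
        congr 2
        group
      rw [h3]
      congr 1
      ext y
      rw [mem_conj_smul_iff]
      constructor
      · intro hy
        exact mul_mem (mul_mem (inv_mem hh) hy) hh
      · intro hy
        have := mul_mem (mul_mem hh hy) (inv_mem hh)
        simpa [mul_assoc] using this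
  -- the stabilizer
  have hstab : (MulAction.stabilizer ↥N H).map N.subtype = N ⊓ centralizer (H : Set G) := by
    ext y
    constructor
    · rintro ⟨x, hx, rfl⟩
      refine Subgroup.mem_inf.mpr ⟨x.2, ?_⟩
      change (x : G) ∈ centralizer (H : Set G)
      rw [mem_centralizer_iff]
      intro h hh
      have hx' : MulAut.conj (x : G) • H = H := hx
      have h1 : (x : G) * h * (x : G)⁻¹ ∈ H := by
        rw [← hx', mem_conj_smul_iff]
        simpa [mul_assoc] using hh
      have h2 : (x : G) * h * (x : G)⁻¹ * h⁻¹ ∈ H := mul_mem h1 (inv_mem hh)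
      have h3 : (x : G) * h * (x : G)⁻¹ * h⁻¹ ∈ N := by
        have h4 : h * (x : G)⁻¹ * h⁻¹ ∈ N := hN.conj_mem _ (inv_mem x.2) h
        have h5 := mul_mem x.2 h4
        simpa [mul_assoc] using h5
      have h6 : (x : G) * h * (x : G)⁻¹ * h⁻¹ ∈ H ⊓ N := Subgroup.mem_inf.mpr ⟨h2, h3⟩
      rw [hinf, mem_bot] at h6
      have h7 : (x : G) * h = h * (x : G) := by
        have h8 : (x : G) * h * (x : G)⁻¹ = h := by
          rwa [mul_inv_eq_one] at h6
        rw [mul_inv_eq_iff_eq_mul] at h8
        exact h8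
      exact h7.symm
    · intro hhh
      obtain ⟨hy, hyC⟩ := Subgroup.mem_inf.mp hhh
      refine ⟨⟨y, hy⟩, ?_, rfl⟩
      rw [mem_centralizer_iff] at hyC
      change MulAut.conj y • H = H
      ext k
      rw [mem_conj_smul_iff]
      constructor
      · intro hk
        have h1 := hyC _ hk
        have h2 : k = y * (y⁻¹ * k * y) * y⁻¹ := by group
        rw [h2, ← h1]
        simpa [mul_assoc] using hk
      · intro hk
        have h1 := hyC _ hk
        have h2 : y⁻¹ * k * y = y⁻¹ * (k * y) := by group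
        rw [h2, h1]
        simpa [mul_assoc] using hk
  have hc2 : Nat.card (MulAction.stabilizer ↥N H) = Nat.card (N ⊓ centralizer (H : Set G) : Subgroup G) := by
    rw [← hstab]
    exact (Subgroup.card_map_of_injective N.subtype_injective).symm
  have hc1 : Nat.card {K : Subgroup G // Nat.card K = Nat.card H ∧ K.map π = H.map π} =
      Nat.card (MulAction.orbit ↥N H) := by
    apply Nat.card_congr
    exact Equiv.subtypeEquivRight (fun K => (horbit K).symm)
  rw [hc1, ← hc2]
  letI := Fintype.ofFinite ↥N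
  letI := Fintype.ofFinite (MulAction.orbit ↥N H)
  letI := Fintype.ofFinite (MulAction.stabilizer ↥N H)
  have := MulAction.card_orbit_mul_card_stabilizer_eq_card_group ↥N H
  simp only [← Nat.card_eq_fintype_card] at this
  exact this

/-- Transport of the centralizer under conjugation. -/
theorem card_inf_centralizer_conj (N : Subgroup G) [hN : N.Normal] (H : Subgroup G) (g : G) :
    Nat.card (N ⊓ centralizer ((MulAut.conj g • H : Subgroup G) : Set G) : Subgroup G) =
      Nat.card (N ⊓ centralizer (H : Set G) : Subgroup G) := by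
  have key : ∀ (H : Subgroup G) (g : G),
      Nat.card (N ⊓ centralizer (H : Set G) : Subgroup G) ≤
      Nat.card (N ⊓ centralizer ((MulAut.conj g • H : Subgroup G) : Set G) : Subgroup G) := by
    intro H g
    rw [← card_conj_smul g (N ⊓ centralizer (H : Set G))]
    apply Subgroup.card_le_of_le
    intro y hy
    rw [mem_conj_smul_iff] at hy
    obtain ⟨h1, h2⟩ := Subgroup.mem_inf.mp hy
    refine Subgroup.mem_inf.mpr ⟨?_, ?_⟩
    · have := hN.conj_mem _ h1 g
      simpa [mul_assoc] using this
    · rw [mem_centralizer_iff]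
      intro k hk
      have hk' : g⁻¹ * k * g ∈ H := by
        have : k ∈ MulAut.conj g • H := hk
        rwa [mem_conj_smul_iff] at this
      have h3 := (mem_centralizer_iff.mp h2) _ hk'
      have h4 : g * (g⁻¹ * k * g * (g⁻¹ * y * g)) * g⁻¹ = g * (g⁻¹ * y * g * (g⁻¹ * k * g)) * g⁻¹ := by
        rw [h3]
      simpa [mul_assoc] using h4
  apply le_antisymm
  · have h1 := key (MulAut.conj g • H) g⁻¹
    have h2 : MulAut.conj g⁻¹ • (MulAut.conj g • H) = H := by
      rw [← mul_smul, ← map_mul, inv_mul_cancel, map_one, one_smul]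
    rwa [h2] at h1
  · exact key H g

/-- **Counting**: the list of factors. -/
theorem main_list : ∀ (c : ℕ) (G : Type u) [Group G] [Finite G] [Group.IsSolvable G] (m n : ℕ),
    Nat.card G = c → Nat.card G = m * n → m.Coprime n →
    ∃ l : List ℕ, Nat.card {H : Subgroup G // Nat.card H = m} = l.prod ∧ ∀ x ∈ l, Good G m x := by
  classical
  intro c
  induction c using Nat.strong_induction_on with
  | _ c ih =>
  intro G _ _ _ m n hc hG hmn
  by_cases hnt : Nontrivial G
  · obtain ⟨N, q, hq, hmin, hcomm, hexp⟩ := exists_normal_elemAbelian (G := G)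
    haveI hN : N.Normal := hmin.1
    haveI hqf : Fact q.Prime := ⟨hq⟩
    have hp : IsPGroup q N := by
      intro x
      exact ⟨1, Subtype.ext (by simpa using hexp x x.2)⟩
    obtain ⟨k, hk⟩ := IsPGroup.iff_card.mp hp
    have hNcard : 1 < Nat.card N := by
      haveI : Nontrivial N := (Subgroup.nontrivial_iff_ne_bot N).mpr hmin.2.1
      exact Finite.one_lt_card
    have hquot : Nat.card (G ⧸ N) * Nat.card N = Nat.card G := by
      have := Subgroup.card_eq_card_quotient_mul_card_subgroup N
      exact this.symm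
    have hqlt : Nat.card (G ⧸ N) < c := by
      rw [← hc, ← hquot]
      have : 0 < Nat.card (G ⧸ N) := Nat.card_pos
      nlinarith
    by_cases hqm : q ∣ m
    · -- `N` is contained in every Hall subgroup
      have hqn : ¬ q ∣ n := fun h => hq.one_lt.ne' (Nat.eq_one_of_dvd_coprimes hmn hqm h)
      have hNn : (Nat.card N).Coprime n := by
        rw [hk]
        exact Nat.Coprime.pow_left _ ((hq.coprime_iff_not_dvd).mpr hqn)
      have hNm : Nat.card N ∣ m := by
        apply hNn.dvd_of_dvd_mul_right
        rw [← hG, ← hquot]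
        exact dvd_mul_left _ _
      obtain ⟨m', hm'⟩ := hNm
      have hm'' : m = m' * Nat.card N := by rw [hm', mul_comm]
      have hG' : Nat.card (G ⧸ N) = m' * n := by
        have h1 : Nat.card (G ⧸ N) * Nat.card N = (m' * n) * Nat.card N := by
          rw [hquot, hG, hm'']
          ring
        exact Nat.eq_of_mul_eq_mul_right Nat.card_pos h1
      have hm'n : m'.Coprime n := Nat.Coprime.coprime_dvd_left ⟨_, hm''⟩ hmn
      obtain ⟨l, hl, hgood⟩ := ih _ hqlt (G ⧸ N) m' n rfl hG' hm'n
      refine ⟨l, ?_, fun x hx => (hgood x hx).lift N (fun r _ hr => hr.trans ⟨_, hm''⟩)⟩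
      rw [count_eq_of_le N hm'' (fun H hH => le_of_coprime N H hG hH hNn), hl]
    · -- `N` meets every Hall subgroup trivially
      have hNm : (Nat.card N).Coprime m := by
        rw [hk]
        exact Nat.Coprime.pow_left _ ((hq.coprime_iff_not_dvd).mpr hqm)
      have hNn : Nat.card N ∣ n := by
        apply hNm.dvd_of_dvd_mul_left
        rw [← hG, ← hquot]
        exact dvd_mul_left _ _
      obtain ⟨n', hn'⟩ := hNn
      have hG' : Nat.card (G ⧸ N) = m * n' := by
        have h1 : Nat.card (G ⧸ N) * Nat.card N = (m * n') * Nat.card N := by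
          rw [hquot, hG, hn']
          ring
        exact Nat.eq_of_mul_eq_mul_right Nat.card_pos h1
      have hmn' : m.Coprime n' := Nat.Coprime.coprime_dvd_right ⟨_, by rw [hn', mul_comm]⟩ hmn
      obtain ⟨l₁, hl₁, hgood₁⟩ := ih _ hqlt (G ⧸ N) m n' rfl hG' hmn'
      obtain ⟨H₀, hH₀⟩ := exists_card_eq m n hG hmn
      have hcopm : (Nat.card H₀).Coprime q := by
        rw [hH₀]
        exact (hq.coprime_iff_not_dvd.mpr hqm).symm
      obtain ⟨l₂, hl₂, hgood₂⟩ := fact_list H₀ hq hcopm _ N rfl hcomm hexp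
        (by rw [normalizer_eq_top]; exact le_top)
      set c₀ := Nat.card (N ⊓ centralizer (H₀ : Set G) : Subgroup G) with hc₀
      have hc₀pos : 0 < c₀ := Nat.card_pos
      have hidx : H₀.index = n := by
        have := Subgroup.card_mul_index H₀
        rw [hG, hH₀] at this
        have hmpos : 0 < m := hH₀ ▸ Nat.card_pos
        exact Nat.eq_of_mul_eq_mul_left hmpos this
      set π := QuotientGroup.mk' N with hπ
      have hcop' : ∀ H : Subgroup G, Nat.card H = m → (Nat.card H).Coprime (Nat.card N) := by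
        intro H hH
        rw [hH]
        exact hNm.symm
      let p : {H : Subgroup G // Nat.card H = m} → {H : Subgroup (G ⧸ N) // Nat.card H = m} :=
        fun H => ⟨H.1.map π, by rw [hπ, card_map_mk N H.1 (hcop' H.1 H.2), H.2]⟩
      have hfib : ∀ y : {H : Subgroup (G ⧸ N) // Nat.card H = m},
          Nat.card {x : {H : Subgroup G // Nat.card H = m} // p x = y} = l₂.prod := by
        intro y
        -- a lift of `y`
        have hL : Nat.card (y.1.comap π) = m * Nat.card N := by
          rw [hπ, card_comap_mk', y.2]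
        obtain ⟨H', hH'⟩ := exists_card_eq (G := y.1.comap π) m (Nat.card N) hL hNm.symm
        set H := H'.map (y.1.comap π).subtype with hH
        have hHcard : Nat.card H = m := by
          rw [hH, Subgroup.card_map_of_injective (y.1.comap π).subtype_injective, hH']
        have hHy : H.map π = y.1 := by
          apply Subgroup.eq_of_le_of_card_ge
          · rintro _ ⟨_, ⟨a, -, rfl⟩, rfl⟩
            exact a.2
          · rw [y.2, hπ, card_map_mk N H (hcop' H hHcard), hHcard]
        obtain ⟨g, hg⟩ := conj_of_card_eq H₀ H (by rw [hH₀, hidx]; exact hmn) (by rw [hHcard, hH₀])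
        have hcH : Nat.card (N ⊓ centralizer (H : Set G) : Subgroup G) = c₀ := by
          rw [← hg]
          exact card_inf_centralizer_conj N H₀ g
        have hf := fiber_card N H (hcop' H hHcard)
        rw [hcH, hl₂] at hf
        have hequiv : Nat.card {x : {H : Subgroup G // Nat.card H = m} // p x = y} =
            Nat.card {K : Subgroup G // Nat.card K = Nat.card H ∧
              K.map (QuotientGroup.mk' N) = H.map (QuotientGroup.mk' N)} := by
          apply Nat.card_congr
          refine ⟨fun x => ⟨x.1.1, by rw [hHcard]; exact x.1.2, ?_⟩,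
            fun K => ⟨⟨K.1, by rw [K.2.1, hHcard]⟩, ?_⟩, ?_, ?_⟩
          · have h1 := congrArg Subtype.val x.2
            change x.1.1.map π = y.1 at h1
            rw [← hπ, h1, hHy]
          · apply Subtype.ext
            change K.1.map π = y.1
            rw [← hHy]
            exact K.2.2
          · intro x
            rfl
          · intro x
            rfl
        rw [hequiv]
        rw [mul_comm] at hf
        rw [mul_comm] at hf
        have : c₀ * Nat.card {K : Subgroup G // Nat.card K = Nat.card H ∧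
            K.map (QuotientGroup.mk' N) = H.map (QuotientGroup.mk' N)} = c₀ * l₂.prod := by
          rw [← hf]
          ring
        exact Nat.eq_of_mul_eq_mul_left hc₀pos this
      have hcount : Nat.card {H : Subgroup G // Nat.card H = m} =
          Nat.card {H : Subgroup (G ⧸ N) // Nat.card H = m} * l₂.prod := by
        letI := Fintype.ofFinite {H : Subgroup (G ⧸ N) // Nat.card H = m}
        rw [← Nat.card_congr (Equiv.sigmaFiberEquiv p), Nat.card_sigma]
        simp only [hfib]
        rw [Finset.sum_const, smul_eq_mul, Finset.card_univ, Nat.card_eq_fintype_card]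
      refine ⟨l₁ ++ l₂, ?_, ?_⟩
      · rw [hcount, hl₁, List.prod_append]
      · intro x hx
        rcases List.mem_append.mp hx with hx | hx
        · exact (hgood₁ x hx).lift N (fun r _ hr => hr)
        · obtain ⟨⟨e, he⟩, hd, r, hr, hrd, hrm⟩ := hgood₂ x hx
          refine ⟨⟨q, e, hq, he⟩, ⟨⊥, N, inferInstance, hN, bot_lt_iff_ne_bot.mpr hmin.2.1, ?_, ?_⟩,
            ⟨r, hr, hH₀ ▸ hrd, hrm⟩⟩
          · intro M hM _ hMN
            exact hmin.2.2 M hM hMN
          · rwa [Subgroup.relIndex_bot_left]
  · rw [not_nontrivial_iff_subsingleton] at hnt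
    have h1 : m * n = 1 := by
      rw [← hG]
      exact Nat.card_unique
    have hm1 : m = 1 := Nat.eq_one_of_mul_eq_one_right h1
    refine ⟨[], ?_, by simp⟩
    rw [List.prod_nil, Nat.card_eq_one_iff_unique]
    constructor
    · constructor
      rintro ⟨a, -⟩ ⟨b, -⟩
      exact Subtype.ext (Subsingleton.elim _ _)
    · exact ⟨⟨⊥, by rw [Subgroup.card_bot, hm1]⟩⟩

end Count

end Cfsg.Agent.Lib.FG7.HallCount
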