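import Mathlib

/-!
# The Krull–Remak–Schmidt theorem for finite groups
-/

set_option autoImplicit false

namespace Cfsg.Agent.Lib.FG7.KrullSchmidt

universe u v

/-- A normal endomorphism: commutes with all inner automorphisms. -/
def IsNormalEnd {H : Type*} [Group H] (f : H → H) : Prop :=
  ∀ a x, f (a * x * a⁻¹) = a * f x * a⁻¹

/-- Directly indecomposable (trivial group allowed). -/
def Indec (H : Type*) [Group H] : Prop :=
  ∀ K L : Subgroup H, K.Normal → L.Normal → K ⊓ L = ⊥ → K ⊔ L = ⊤ → K = ⊥ ∨ L = ⊥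

theorem exists_idem {M : Type*} [Monoid M] [Finite M] (f : M) :
    ∃ n, 1 ≤ n ∧ f ^ n * f ^ n = f ^ n := by
  obtain ⟨a, b, hab, h⟩ := Finite.exists_ne_map_eq_of_infinite (fun n : ℕ => f ^ n)
  wlog hlt : a < b generalizing a b
  · exact this b a hab.symm h.symm (lt_of_le_of_ne (not_lt.mp hlt) hab.symm)
  obtain ⟨p, rfl⟩ : ∃ p, b = a + (p + 1) := ⟨b - a - 1, by omega⟩
  set P := p + 1 with hP
  have h1 : ∀ m, a ≤ m → f ^ (m + P) = f ^ m := by
    intro m hm
    obtain ⟨c, rfl⟩ := Nat.exists_eq_add_of_le hm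
    have h2 : f ^ (a + P) = f ^ a := h.symm
    calc f ^ (a + c + P) = f ^ (a + P) * f ^ c := by rw [← pow_add]; congr 1; ring
      _ = f ^ a * f ^ c := by rw [h2]
      _ = f ^ (a + c) := by rw [pow_add]
  have h2 : ∀ k m, a ≤ m → f ^ (m + k * P) = f ^ m := by
    intro k
    induction k with
    | zero => intro m _; simp
    | succ k ih =>
      intro m hm
      rw [show m + (k + 1) * P = (m + k * P) + P by ring, h1 _ (le_trans hm (Nat.le_add_right _ _)), ih m hm]
  refine ⟨(a + 1) * P, Nat.mul_pos (Nat.succ_pos _) (Nat.succ_pos _), ?_⟩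
  rw [← pow_add]
  exact h2 (a + 1) _ (by nlinarith)

instance finiteEnd {H : Type*} [Group H] [Finite H] : Finite (Monoid.End H) :=
  Finite.of_injective (fun f : Monoid.End H => (f : H → H)) DFunLike.coe_injective

theorem IsNormalEnd.pow {H : Type*} [Group H] {f : Monoid.End H} (hf : IsNormalEnd f)
    (n : ℕ) : IsNormalEnd ((f ^ n : Monoid.End H)) := by
  induction n with
  | zero => intro a x; rfl
  | succ n ih =>
    intro a x
    rw [pow_succ]
    change (f ^ n : Monoid.End H) (f (a * x * a⁻¹)) = a * (f ^ n : Monoid.End H) (f x) * a⁻¹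
    rw [hf a x]
    exact ih a (f x)

/-- Fitting's lemma. -/
theorem fitting {H : Type*} [Group H] [Finite H] (hI : Indec H) (f : Monoid.End H)
    (hf : IsNormalEnd f) : Function.Bijective f ∨ ∃ n : ℕ, ∀ x, (f ^ n) x = 1 := by
  obtain ⟨n, hn, hid⟩ := exists_idem f
  set e : Monoid.End H := f ^ n with he
  have hidx : ∀ x, e (e x) = e x := fun x => DFunLike.congr_fun hid x
  have hen : IsNormalEnd e := hf.pow n
  have hK : (MonoidHom.ker (e : H →* H)).Normal := MonoidHom.normal_ker _
  have hL : (MonoidHom.range (e : H →* H)).Normal := by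
    refine ⟨?_⟩
    rintro _ ⟨y, rfl⟩ a
    exact ⟨a * y * a⁻¹, hen a y⟩
  have h1 : MonoidHom.ker (e : H →* H) ⊓ MonoidHom.range (e : H →* H) = ⊥ := by
    rw [eq_bot_iff]
    rintro x ⟨hx, ⟨y, rfl⟩⟩
    have hx' : e (e y) = 1 := hx
    rw [hidx] at hx'
    exact hx'
  have h2 : MonoidHom.ker (e : H →* H) ⊔ MonoidHom.range (e : H →* H) = ⊤ := by
    rw [eq_top_iff]
    intro x _
    have hx : x = (x * (e x)⁻¹) * e x := by group
    rw [hx]
    refine Subgroup.mul_mem_sup ?_ ⟨x, rfl⟩
    change e (x * (e x)⁻¹) = 1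
    rw [map_mul, map_inv, hidx, mul_inv_cancel]
  rcases hI _ _ hK hL h1 h2 with h | h
  · left
    rw [← Finite.injective_iff_bijective]
    have hinj : Function.Injective e := (MonoidHom.ker_eq_bot_iff _).mp h
    intro x y hxy
    apply hinj
    obtain ⟨m, rfl⟩ : ∃ m, n = m + 1 := ⟨n - 1, by omega⟩
    change ((f ^ m * f : Monoid.End H)) x = (f ^ m * f : Monoid.End H) y
    change (f ^ m : Monoid.End H) (f x) = (f ^ m : Monoid.End H) (f y)
    rw [hxy]
  · right
    refine ⟨n, fun x => ?_⟩
    have : (e : H →* H) x ∈ MonoidHom.range (e : H →* H) := ⟨x, rfl⟩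
    rw [h] at this
    exact this

/-- A sum of two non-bijective normal endomorphisms is not bijective. -/
theorem bij_of_mul {H : Type*} [Group H] [Finite H] (hI : Indec H) (f g h : Monoid.End H)
    (hf : IsNormalEnd f)
    (hh : ∀ x, h x = f x * g x) (hg : IsNormalEnd g) (hb : Function.Bijective h) :
    Function.Bijective f ∨ Function.Bijective g := by
  by_contra hcon
  push Not at hcon
  obtain ⟨hnf, hng⟩ := hcon
  let E : H ≃* H := MulEquiv.ofBijective (h : H →* H) hb
  have hE : ∀ x, E x = f x * g x := hh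
  have hE' : ∀ x, f (E.symm x) * g (E.symm x) = x := by
    intro x
    rw [← hE, MulEquiv.apply_symm_apply]
  have hEn : ∀ a x, E.symm (a * x * a⁻¹) = a * E.symm x * a⁻¹ := by
    intro a x
    apply E.injective
    rw [MulEquiv.apply_symm_apply, hE, hf, hg]
    have := hE' x
    calc a * x * a⁻¹ = a * (f (E.symm x) * g (E.symm x)) * a⁻¹ := by rw [this]
      _ = _ := by group
  let u : Monoid.End H := (f : H →* H).comp (E.symm : H ≃* H).toMonoidHom
  let v : Monoid.End H := (g : H →* H).comp (E.symm : H ≃* H).toMonoidHom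
  have hu : ∀ x, u x = f (E.symm x) := fun _ => rfl
  have hv : ∀ x, v x = g (E.symm x) := fun _ => rfl
  have huv : ∀ x, u x * v x = x := hE'
  have hun : IsNormalEnd u := by
    intro a x
    change f (E.symm (a * x * a⁻¹)) = a * f (E.symm x) * a⁻¹
    rw [hEn, hf]
  have hnu : ¬ Function.Bijective u := by
    intro hbu
    apply hnf
    have : (f : H → H) = u ∘ E := by
      funext x
      simp [hu]
    rw [this]
    exact hbu.comp E.bijective
  obtain ⟨n, hn⟩ := (fitting hI u hun).resolve_left hnu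
  have hvinj : Function.Injective v := by
    rw [injective_iff_map_eq_one]
    intro x hx
    have h1 : u x = x := by
      have := huv x
      rwa [hx, mul_one] at this
    have h2 : ∀ k : ℕ, (u ^ k : Monoid.End H) x = x := by
      intro k
      induction k with
      | zero => rfl
      | succ k ih =>
        rw [pow_succ]
        change (u ^ k : Monoid.End H) (u x) = x
        rw [h1, ih]
    have h3 := h2 n
    rw [hn] at h3
    exact h3.symm
  have hvb : Function.Bijective v := Finite.injective_iff_bijective.mp hvinj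
  apply hng
  have : (g : H → H) = v ∘ E := by
    funext x
    simp [hv]
  rw [this]
  exact hvb.comp E.bijective

section Main

variable {ι κ : Type} [Fintype ι] [Fintype κ] [DecidableEq ι] [DecidableEq κ]
  {A : ι → Type u} {B : κ → Type v} [∀ i, Group (A i)] [∀ j, Group (B j)]
  [∀ i, Finite (A i)] [∀ j, Finite (B j)]

/-- Truncation to the coordinates in `s`. -/
def rho (s : Finset κ) : (∀ j, B j) →* (∀ j, B j) where
  toFun x j := if j ∈ s then x j else 1
  map_one' := by funext j; simp
  map_mul' x y := by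
    funext j
    by_cases h : j ∈ s <;> simp [h]

omit [Fintype κ] [∀ j, Finite (B j)] in
theorem rho_normal (s : Finset κ) : IsNormalEnd (rho s : (∀ j, B j) →* (∀ j, B j)) := by
  intro a x
  funext j
  by_cases h : j ∈ s <;> simp [rho, h]

/-- The endomorphism of `A i₀` obtained from a normal endomorphism of the `B` product. -/
def compress (e : (∀ i, A i) ≃* (∀ j, B j)) (i₀ : ι) (T : (∀ j, B j) →* (∀ j, B j)) :
    Monoid.End (A i₀) :=
  ((Pi.evalMonoidHom A i₀).comp (e.symm.toMonoidHom.comp (T.comp e.toMonoidHom))).comp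
    (MonoidHom.mulSingle A i₀)

theorem compress_apply (e : (∀ i, A i) ≃* (∀ j, B j)) (i₀ : ι) (T : (∀ j, B j) →* (∀ j, B j))
    (a : A i₀) : compress e i₀ T a = e.symm (T (e (Pi.mulSingle i₀ a))) i₀ := rfl

theorem compress_normal (e : (∀ i, A i) ≃* (∀ j, B j)) (i₀ : ι) (T : (∀ j, B j) →* (∀ j, B j))
    (hT : IsNormalEnd T) : IsNormalEnd (compress e i₀ T) := by
  intro a x
  change e.symm (T (e (Pi.mulSingle i₀ (a * x * a⁻¹)))) i₀ = a * e.symm (T (e (Pi.mulSingle i₀ x))) i₀ * a⁻¹
  have h1 : (Pi.mulSingle i₀ (a * x * a⁻¹) : ∀ i, A i) =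
      Pi.mulSingle i₀ a * Pi.mulSingle i₀ x * (Pi.mulSingle i₀ a)⁻¹ := by
    rw [Pi.mulSingle_mul, Pi.mulSingle_mul, Pi.mulSingle_inv]
  have h2 : e (Pi.mulSingle i₀ a * Pi.mulSingle i₀ x * (Pi.mulSingle i₀ a)⁻¹) =
      e (Pi.mulSingle i₀ a) * e (Pi.mulSingle i₀ x) * (e (Pi.mulSingle i₀ a))⁻¹ := by
    rw [map_mul, map_mul, map_inv]
  rw [h1, h2, hT]
  simp only [map_mul, map_inv, MulEquiv.symm_apply_apply, Pi.mul_apply, Pi.inv_apply,
    Pi.mulSingle_eq_same]

theorem exists_bij_single (i₀ : ι) (hI : Indec (A i₀)) [Nontrivial (A i₀)]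
    (e : (∀ i, A i) ≃* (∀ j, B j)) :
    ∃ j, Function.Bijective (compress e i₀ (rho {j})) := by
  have key : ∀ s : Finset κ, Function.Bijective (compress e i₀ (rho s)) →
      ∃ j, Function.Bijective (compress e i₀ (rho {j})) := by
    intro s
    induction s using Finset.induction_on with
    | empty =>
      intro hb
      exfalso
      obtain ⟨a, ha⟩ := exists_ne (1 : A i₀)
      apply ha
      apply hb.1
      rw [map_one]
      change e.symm (rho ∅ (e (Pi.mulSingle i₀ a))) i₀ = 1
      have : rho (∅ : Finset κ) (e (Pi.mulSingle i₀ a)) = 1 := by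
        funext j
        simp [rho]
      rw [this, map_one]
      rfl
    | insert j s hj ih =>
      intro hb
      have hsum : ∀ a, compress e i₀ (rho (insert j s)) a =
          compress e i₀ (rho {j}) a * compress e i₀ (rho s) a := by
        intro a
        simp only [compress_apply]
        have : rho (insert j s) (e (Pi.mulSingle i₀ a)) =
            rho {j} (e (Pi.mulSingle i₀ a)) * rho s (e (Pi.mulSingle i₀ a)) := by
          funext k
          by_cases hk : k = j
          · subst hk
            simp [rho, hj]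
          · by_cases hs : k ∈ s <;> simp [rho, hk, hs]
        rw [this, map_mul]
        rfl
      rcases bij_of_mul hI _ _ _ (compress_normal e i₀ _ (rho_normal _)) hsum
        (compress_normal e i₀ _ (rho_normal _)) hb with h | h
      · exact ⟨j, h⟩
      · exact ih h
  apply key Finset.univ
  have : ∀ a, compress e i₀ (rho Finset.univ) a = a := by
    intro a
    rw [compress_apply]
    have h : rho (Finset.univ : Finset κ) (e (Pi.mulSingle i₀ a)) = e (Pi.mulSingle i₀ a) := by
      funext k
      simp [rho]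
    rw [h]
    simp
  constructor
  · intro a b hab
    rwa [this, this] at hab
  · intro a
    exact ⟨a, this a⟩

/-- The `B j` coordinate of `A i₀`. -/
def alpha (e : (∀ i, A i) ≃* (∀ j, B j)) (i₀ : ι) (j : κ) : A i₀ →* B j :=
  (Pi.evalMonoidHom B j).comp (e.toMonoidHom.comp (MonoidHom.mulSingle A i₀))

/-- The `A i₀` coordinate of `B j`. -/
def beta (e : (∀ i, A i) ≃* (∀ j, B j)) (i₀ : ι) (j : κ) : B j →* A i₀ :=
  (Pi.evalMonoidHom A i₀).comp (e.symm.toMonoidHom.comp (MonoidHom.mulSingle B j))

omit [Fintype κ] [∀ j, Finite (B j)] in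
theorem rho_singleton (j : κ) (x : ∀ k, B k) : rho {j} x = Pi.mulSingle j (x j) := by
  funext k
  by_cases hk : k = j
  · subst hk
    simp [rho]
  · simp [rho, hk]

theorem compress_eq (e : (∀ i, A i) ≃* (∀ j, B j)) (i₀ : ι) (j : κ) (a : A i₀) :
    compress e i₀ (rho {j}) a = beta e i₀ j (alpha e i₀ j a) := by
  rw [compress_apply, rho_singleton]
  rfl

theorem compress_symm_eq (e : (∀ i, A i) ≃* (∀ j, B j)) (i₀ : ι) (j : κ) (b : B j) :
    compress e.symm j (rho {i₀}) b = alpha e i₀ j (beta e i₀ j b) := by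
  rw [compress_apply, rho_singleton]
  rfl

theorem pow_compress (e : (∀ i, A i) ≃* (∀ j, B j)) (i₀ : ι) (j : κ) (n : ℕ) (a : A i₀) :
    ((compress e i₀ (rho {j})) ^ (n + 1)) a =
      beta e i₀ j (((compress e.symm j (rho {i₀})) ^ n) (alpha e i₀ j a)) := by
  induction n generalizing a with
  | zero =>
    rw [pow_one, pow_zero, compress_eq]
    rfl
  | succ n ih =>
    rw [pow_succ]
    change ((compress e i₀ (rho {j})) ^ (n + 1)) (compress e i₀ (rho {j}) a) = _
    rw [ih, compress_eq, pow_succ]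
    change _ = beta e i₀ j (((compress e.symm j (rho {i₀})) ^ n)
      (compress e.symm j (rho {i₀}) (alpha e i₀ j a)))
    rw [compress_symm_eq]

/-- The exchange step. -/
theorem exchange (i₀ : ι) (hI : Indec (A i₀)) [Nontrivial (A i₀)] (j : κ) (hJ : Indec (B j))
    (e : (∀ i, A i) ≃* (∀ j, B j))
    (hb : Function.Bijective (compress e i₀ (rho {j}))) :
    Nonempty (A i₀ ≃* B j) ∧
      Nonempty ((∀ i : {i // i ≠ i₀}, A i) ≃* (∀ k : {k // k ≠ j}, B k)) := by
  have hg : Function.Bijective (compress e.symm j (rho {i₀})) := by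
    refine (fitting hJ _ (compress_normal _ _ _ (rho_normal _))).resolve_right ?_
    rintro ⟨n, hn⟩
    obtain ⟨a, ha⟩ := exists_ne (1 : A i₀)
    have h1 : ((compress e i₀ (rho {j})) ^ (n + 1)) a = 1 := by
      rw [pow_compress, hn, map_one]
    have h2 : ∀ k : ℕ, ∀ x, ((compress e i₀ (rho {j})) ^ k) x = 1 → x = 1 := by
      intro k
      induction k with
      | zero => intro x hx; exact hx
      | succ k ih =>
        intro x hx
        rw [pow_succ] at hx
        have h3 : compress e i₀ (rho {j}) x = 1 := ih _ hx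
        exact hb.1 (h3.trans (map_one _).symm)
    exact ha (h2 _ _ h1)
  have hαinj : Function.Injective (alpha e i₀ j) := by
    intro x y hxy
    apply hb.1
    rw [compress_eq, compress_eq, hxy]
  have hαsurj : Function.Surjective (alpha e i₀ j) := by
    intro b
    obtain ⟨c, hc⟩ := hg.2 b
    rw [compress_symm_eq] at hc
    exact ⟨_, hc⟩
  have hβinj : Function.Injective (beta e i₀ j) := by
    intro x y hxy
    apply hg.1
    rw [compress_symm_eq, compress_symm_eq, hxy]
  let E₁ : A i₀ ≃* B j := MulEquiv.ofBijective (alpha e i₀ j) ⟨hαinj, hαsurj⟩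
  refine ⟨⟨E₁⟩, ?_⟩
  -- the map between the complements
  let ext : (∀ i : {i // i ≠ i₀}, A i) →* (∀ i, A i) :=
    { toFun := fun c i => if h : i = i₀ then 1 else c ⟨i, h⟩
      map_one' := by
        funext i
        by_cases h : i = i₀ <;> simp [h]
      map_mul' := by
        intro x y
        funext i
        by_cases h : i = i₀ <;> simp [h] }
  have hext : ∀ c i₁, ext c i₁.1 = c i₁ := by
    intro c i₁
    have : i₁.1 ≠ i₀ := i₁.2
    change (if h : i₁.1 = i₀ then 1 else c ⟨i₁.1, h⟩) = c i₁
    rw [dif_neg this]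
  have hext0 : ∀ c, ext c i₀ = 1 := by
    intro c
    exact dif_pos rfl
  let Φ : (∀ i : {i // i ≠ i₀}, A i) →* (∀ k : {k // k ≠ j}, B k) :=
    { toFun := fun c k => e (ext c) k.1
      map_one' := by
        funext k
        simp
      map_mul' := by
        intro x y
        funext k
        simp }
  have hΦinj : Function.Injective Φ := by
    rw [injective_iff_map_eq_one]
    intro c hc
    have h1 : e (ext c) = Pi.mulSingle j (e (ext c) j) := by
      funext k
      by_cases hk : k = j
      · subst hk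
        simp
      · rw [Pi.mulSingle_eq_of_ne hk]
        exact congrFun hc ⟨k, hk⟩
    have h2 : ext c = e.symm (Pi.mulSingle j (e (ext c) j)) := by
      rw [← h1]
      simp
    have h3 : beta e i₀ j (e (ext c) j) = 1 := by
      change e.symm (Pi.mulSingle j (e (ext c) j)) i₀ = 1
      rw [← h2, hext0]
    have h4 : e (ext c) j = 1 := hβinj (h3.trans (map_one _).symm)
    have h5 : ext c = 1 := by
      rw [h2, h4]
      simp
    funext i
    rw [← hext c i, h5]
    rfl
  have hcardG : Nat.card (∀ i, A i) = Nat.card (∀ j, B j) := Nat.card_congr e.toEquiv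
  have hc1 : Nat.card (∀ i, A i) = Nat.card (A i₀) * Nat.card (∀ i : {i // i ≠ i₀}, A i) := by
    rw [Nat.card_congr (Equiv.piSplitAt i₀ A), Nat.card_prod]
  have hc2 : Nat.card (∀ k, B k) = Nat.card (B j) * Nat.card (∀ k : {k // k ≠ j}, B k) := by
    rw [Nat.card_congr (Equiv.piSplitAt j B), Nat.card_prod]
  have hc3 : Nat.card (A i₀) = Nat.card (B j) := Nat.card_congr E₁.toEquiv
  have hpos : 0 < Nat.card (B j) := Nat.card_pos
  have hc4 : Nat.card (∀ i : {i // i ≠ i₀}, A i) = Nat.card (∀ k : {k // k ≠ j}, B k) := by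
    rw [hc1, hc2, hc3] at hcardG
    exact Nat.eq_of_mul_eq_mul_left hpos hcardG
  have hΦb : Function.Bijective Φ := (Nat.bijective_iff_injective_and_card Φ).mpr ⟨hΦinj, hc4⟩
  exact ⟨MulEquiv.ofBijective Φ hΦb⟩

end Main

/-- Krull–Remak–Schmidt for finitely indexed products. -/
theorem main (n : ℕ) : ∀ (ι κ : Type) [Fintype ι] [Fintype κ] [DecidableEq ι] [DecidableEq κ]
    (A : ι → Type u) (B : κ → Type v) [∀ i, Group (A i)] [∀ j, Group (B j)]
    [∀ i, Finite (A i)] [∀ j, Finite (B j)]
    (_ : ∀ i, Nontrivial (A i) ∧ Indec (A i)) (_ : ∀ j, Nontrivial (B j) ∧ Indec (B j))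
    (_ : (∀ i, A i) ≃* (∀ j, B j)) (_ : Fintype.card ι = n),
    ∃ σ : ι ≃ κ, ∀ i, Nonempty (A i ≃* B (σ i)) := by
  induction n with
  | zero =>
    intro ι κ _ _ _ _ A B _ _ _ _ hA hB e hn
    have hι : IsEmpty ι := Fintype.card_eq_zero_iff.mp hn
    have hκ : IsEmpty κ := by
      refine ⟨fun j => ?_⟩
      haveI := (hB j).1
      obtain ⟨b, hb⟩ := exists_ne (1 : B j)
      have h1 : e.symm (Pi.mulSingle j b) = 1 := Subsingleton.elim _ _
      have h2 : (Pi.mulSingle j b : ∀ k, B k) = 1 := by
        have := congrArg e h1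
        simpa using this
      apply hb
      have := congrFun h2 j
      simpa using this
    exact ⟨Equiv.equivOfIsEmpty ι κ, fun i => isEmptyElim i⟩
  | succ n ih =>
    intro ι κ _ _ _ _ A B _ _ _ _ hA hB e hn
    have hι : Nonempty ι := Fintype.card_pos_iff.mp (by omega)
    obtain ⟨i₀⟩ := hι
    haveI := (hA i₀).1
    obtain ⟨j, hj⟩ := exists_bij_single i₀ (hA i₀).2 e
    obtain ⟨⟨E₁⟩, ⟨E₂⟩⟩ := exchange i₀ (hA i₀).2 j (hB j).2 e hj
    have hcard : Fintype.card {i // i ≠ i₀} = n := by
      rw [Fintype.card_subtype_compl, Fintype.card_subtype_eq, hn]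
      omega
    obtain ⟨σ', hσ'⟩ := ih {i // i ≠ i₀} {k // k ≠ j} (fun i => A i) (fun k => B k)
      (fun i => hA i) (fun k => hB k) E₂ hcard
    let σ : ι ≃ κ :=
      { toFun := fun i => if h : i = i₀ then j else (σ' ⟨i, h⟩).1
        invFun := fun k => if h : k = j then i₀ else (σ'.symm ⟨k, h⟩).1
        left_inv := by
          intro i
          by_cases h : i = i₀
          · simp [h]
          · simp [h, (σ' ⟨i, h⟩).2]
        right_inv := by
          intro k
          by_cases h : k = j
          · simp [h]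
          · simp [h, (σ'.symm ⟨k, h⟩).2] }
    refine ⟨σ, fun i => ?_⟩
    by_cases h : i = i₀
    · subst h
      have : σ i = j := by simp [σ]
      rw [this]
      exact ⟨E₁⟩
    · have : σ i = (σ' ⟨i, h⟩).1 := by simp [σ, h]
      rw [this]
      exact hσ' ⟨i, h⟩

end Cfsg.Agent.Lib.FG7.KrullSchmidt
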