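import Mathlib
import Cfsg.Agent.Lib.Transfer.Tate
import Cfsg.Agent.Lib.TransferCtl.EngelNorm
import Cfsg.Agent.Lib.TransferCtl.Orbits

/-!
# Wielandt's theorem on control of `p`-transfer by the normalizer of a weakly closed subgroup
-/

set_option autoImplicit false

namespace Cfsg.Agent.Lib.FG7.Wielandt

open Finset Cfsg Cfsg.Agent.Lib.TransferCtl.EngelNorm Cfsg.Agent.Lib.TransferCtl.Orbits
  Cfsg.Agent.Lib.Transfer.Tate Cfsg.Agent.Lib.Transfer.Basic

universe u

section Norm

variable {p : ℕ} [Fact p.Prime]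

/-- `1 + t + ... + t^(p-1) = (t-1)^(p-1)`, evaluated on additive functions. -/
theorem sum_iterate_eq {Λ : Type*} [Group Λ] (τ : Λ →* Λ) (φ : Λ → ZMod p)
    (hφ : ∀ a b, φ (a * b) = φ a + φ b) (u : Λ) :
    ∑ i ∈ range p, φ (τ^[i] u) = φ ((fun y => y⁻¹ * τ y)^[p - 1] u) := by
  let T : Module.End (ZMod p) (Λ → ZMod p) := LinearMap.funLeft (ZMod p) (ZMod p) τ
  have hT : ∀ (ψ : Λ → ZMod p) (w : Λ), T ψ w = ψ (τ w) := fun _ _ => rfl
  have hstep : ∀ (k : ℕ) (ψ : Λ → ZMod p), (∀ a b, ψ (a * b) = ψ a + ψ b) →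
      ((T - 1) ^ k) ψ u = ψ ((fun y => y⁻¹ * τ y)^[k] u) := by
    intro k
    induction k with
    | zero => intro ψ _; simp
    | succ k ih =>
      intro ψ hψ
      have hψ1 : ∀ a b, ((T - 1) ψ) (a * b) = ((T - 1) ψ) a + ((T - 1) ψ) b := by
        intro a b
        simp only [LinearMap.sub_apply, Pi.sub_apply, hT, Module.End.one_apply, map_mul, hψ]
        ring
      rw [pow_succ, Module.End.mul_apply, ih _ hψ1, Function.iterate_succ_apply']
      set w := (fun y => y⁻¹ * τ y)^[k] u with hw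
      simp only [LinearMap.sub_apply, Pi.sub_apply, hT, Module.End.one_apply, hψ]
      have h1 : ψ w⁻¹ = - ψ w := by
        have h2 : ψ (w⁻¹ * w) = ψ w⁻¹ + ψ w := hψ _ _
        have h3 : ψ (1 : Λ) = 0 := by
          have h4 := hψ 1 1
          simpa using h4
        rw [inv_mul_cancel, h3] at h2
        exact eq_neg_of_add_eq_zero_left h2.symm
      rw [h1]
      ring
  have hpoly : ∑ i ∈ range p, T ^ i = (T - 1) ^ (p - 1) := by
    have h1 := congrArg (Polynomial.aeval T) (geom_sum_eq_pow p)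
    simpa [map_sum, map_pow, map_sub, Polynomial.aeval_X, map_one] using h1
  have hpow : ∀ (i : ℕ) (ψ : Λ → ZMod p), (T ^ i) ψ u = ψ (τ^[i] u) := by
    intro i
    induction i with
    | zero => intro ψ; simp
    | succ i ih =>
      intro ψ
      rw [pow_succ, Module.End.mul_apply, ih, hT, Function.iterate_succ_apply']
  rw [← hstep _ φ hφ, ← hpoly, LinearMap.sum_apply, Finset.sum_apply]
  exact Finset.sum_congr rfl fun i _ => (hpow i φ).symm

end Norm

section Ext

variable {G : Type u} [Group G] (H : Subgroup G) {A : Type*} [CommGroup A]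

open Classical in
/-- Extension by one. -/
noncomputable def ext1 (θ : H →* A) (a : G) : A := if h : a ∈ H then θ ⟨a, h⟩ else 1

variable {H}

theorem ext1_of_mem (θ : H →* A) {a : G} (h : a ∈ H) : ext1 H θ a = θ ⟨a, h⟩ := by
  classical
  simp [ext1, h]

theorem ext1_coe (θ : H →* A) (a : H) : ext1 H θ (a : G) = θ a := ext1_of_mem θ a.2

theorem ext1_mul (θ : H →* A) {a b : G} (ha : a ∈ H) (hb : b ∈ H) :
    ext1 H θ (a * b) = ext1 H θ a * ext1 H θ b := by
  rw [ext1_of_mem θ ha, ext1_of_mem θ hb, ext1_of_mem θ (H.mul_mem ha hb), ← map_mul]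
  rfl

theorem ext1_conj (θ : H →* A) {c : G} (hc : c ∈ H) (a : G) :
    ext1 H θ (c⁻¹ * a * c) = ext1 H θ a := by
  classical
  by_cases ha : a ∈ H
  · rw [ext1_mul θ (H.mul_mem (H.inv_mem hc) ha) hc, ext1_mul θ (H.inv_mem hc) ha,
      mul_comm (ext1 H θ c⁻¹), mul_assoc, ← ext1_mul θ (H.inv_mem hc) hc]
    rw [inv_mul_cancel, ext1_of_mem θ H.one_mem]
    have : (⟨1, H.one_mem⟩ : H) = 1 := rfl
    rw [this, map_one, mul_one]
  · have h1 : c⁻¹ * a * c ∉ H := by
      intro h
      apply ha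
      have := H.mul_mem (H.mul_mem hc h) (H.inv_mem hc)
      have e : c * (c⁻¹ * a * c) * c⁻¹ = a := by group
      rwa [e] at this
    simp [ext1, ha, h1]

theorem ext1_out (θ : H →* A) (x t : G) :
    ext1 H θ ((t : G ⧸ H).out⁻¹ * x * (t : G ⧸ H).out) = ext1 H θ (t⁻¹ * x * t) := by
  obtain ⟨h, hh⟩ := QuotientGroup.mk_out_eq_mul H t
  rw [hh]
  have e : (t * h)⁻¹ * x * (t * h) = (h : G)⁻¹ * (t⁻¹ * x * t) * h := by group
  rw [mul_assoc, ← mul_assoc x] 
  have e' : (t * ↑h)⁻¹ * (x * t * ↑h) = (h : G)⁻¹ * (t⁻¹ * x * t) * h := by group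
  rw [e', ext1_conj θ h.2]

/-- The transfer as a product over fixed points. -/
theorem transfer_eq_prod_fixed [Finite G] [Fintype (G ⧸ H)] [DecidableEq (G ⧸ H)] (θ : H →* A) (x : G)
    (hn : ∀ q : G ⧸ H, Function.minimalPeriod (x • ·) q ≠ 1 →
      ext1 H θ (q.out⁻¹ * x ^ Function.minimalPeriod (x • ·) q * q.out) = 1) :
    MonoidHom.transfer θ x =
      ∏ y ∈ univ.filter (fun y : G ⧸ H => x • y = y), ext1 H θ (y.out⁻¹ * x * y.out) := by
  classical
  letI : Fintype (Quotient (MulAction.orbitRel (Subgroup.zpowers x) (G ⧸ H))) := Fintype.ofFinite _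
  rw [MonoidHom.transfer_eq_prod_quotient_orbitRel_zpowers_quot]
  have h1 : ∀ q : Quotient (MulAction.orbitRel (Subgroup.zpowers x) (G ⧸ H)),
      θ ⟨q.out.out⁻¹ * x ^ Function.minimalPeriod (x • ·) q.out * q.out.out,
        QuotientGroup.out_conj_pow_minimalPeriod_mem H x q.out⟩ =
      ext1 H θ (q.out.out⁻¹ * x ^ Function.minimalPeriod (x • ·) q.out * q.out.out) :=
    fun q => (ext1_of_mem θ _).symm
  simp_rw [h1]
  have h2 : ∀ y : G ⧸ H, Function.minimalPeriod (x • ·) y = 1 ↔ x • y = y := by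
    intro y
    rw [Function.minimalPeriod_eq_one_iff_isFixedPt]
    rfl
  rw [← Finset.prod_filter_of_ne (p := fun q : Quotient (MulAction.orbitRel (Subgroup.zpowers x) (G ⧸ H)) =>
    Function.minimalPeriod (x • ·) q.out = 1)]
  · refine Finset.prod_bij (fun q _ => q.out) ?_ ?_ ?_ ?_
    · intro q hq
      exact Finset.mem_filter.mpr ⟨Finset.mem_univ _, (h2 _).mp (Finset.mem_filter.mp hq).2⟩
    · intro q₁ _ q₂ _ h
      rw [← Quotient.out_eq q₁, ← Quotient.out_eq q₂, h]
    · intro y hy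
      have hy' : x • y = y := (Finset.mem_filter.mp hy).2
      have hzp : Subgroup.zpowers x ≤ MulAction.stabilizer G y :=
        Subgroup.zpowers_le.mpr hy'
      let q : Quotient (MulAction.orbitRel (Subgroup.zpowers x) (G ⧸ H)) := Quotient.mk _ y
      have hq : q.out = y := by
        have h3 : q.out ∈ MulAction.orbit (Subgroup.zpowers x) y :=
          Quotient.mk_out (s := MulAction.orbitRel (Subgroup.zpowers x) (G ⧸ H)) y
        obtain ⟨g, hg⟩ := h3
        rw [← hg]
        exact hzp g.2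
      refine ⟨q, Finset.mem_filter.mpr ⟨Finset.mem_univ _, ?_⟩, hq⟩
      rw [hq]
      exact (h2 y).mpr hy'
    · intro q hq
      rw [(Finset.mem_filter.mp hq).2, pow_one]
  · intro q _ hne
    by_contra hcon
    exact hne (hn q.out hcon)

end Ext

section Main

variable {G : Type u} [Group G] [Finite G] {p : ℕ} [hp : Fact p.Prime]

theorem normalizer_of_weaklyClosed {P Q : Subgroup G} (hQ : IsWeaklyClosed Q P) : P ≤ Subgroup.normalizer (Q : Set G) := by
  intro u hu
  have h1 : Q.map (MulAut.conj u).toMonoidHom = Q := by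
    apply hQ.2
    rintro _ ⟨w, hw, rfl⟩
    exact P.mul_mem (P.mul_mem hu (hQ.1 hw)) (P.inv_mem hu)
  rw [Subgroup.mem_normalizer_iff]
  intro w
  constructor
  · intro hw
    rw [← h1]
    exact ⟨w, hw, rfl⟩
  · intro hw
    rw [← h1] at hw
    obtain ⟨w', hw', he⟩ := hw
    have : w' = w := by
      simpa using he
    rwa [← this]

/-- Only the trivial coset is fixed by `Q`. -/
theorem mem_normalizer_of_conj_le (P : Sylow p G) {Q : Subgroup G}
    (hQ : IsWeaklyClosed Q (P : Subgroup G)) {t : G}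
    (ht : ∀ z ∈ Q, t⁻¹ * z * t ∈ Subgroup.normalizer (Q : Set G)) :
    t ∈ Subgroup.normalizer (Q : Set G) := by
  have hQp : IsPGroup p Q := P.2.to_le hQ.1
  set B : Subgroup G := Q.map (MulAut.conj t⁻¹).toMonoidHom with hB
  have hBp : IsPGroup p B := hQp.map _
  have hBN : B ≤ Subgroup.normalizer (Q : Set G) := by
    rintro _ ⟨z, hz, rfl⟩
    have := ht z hz
    simpa using this
  have hsup : IsPGroup p (B ⊔ Q : Subgroup G) := hBp.to_sup_of_normal_right' hQp hBN
  obtain ⟨T, hT⟩ := hsup.exists_le_sylow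
  obtain ⟨g, hg⟩ := MulAction.exists_smul_eq G T P
  have hTP : ∀ a ∈ (T : Subgroup G), g * a * g⁻¹ ∈ (P : Subgroup G) := by
    intro a ha
    have h1 : g * a * g⁻¹ ∈ g • T :=
      (Cfsg.Agent.Lib.Transfer.Frobenius.mem_smul_sylow_iff g _ T).mpr (by
        have e : g⁻¹ * (g * a * g⁻¹) * g = a := by group
        rw [e]
        exact ha)
    rw [hg] at h1
    exact h1
  have h1 : Q.map (MulAut.conj g).toMonoidHom = Q := by
    apply hQ.2
    rintro _ ⟨w, hw, rfl⟩
    exact hTP w (hT (Subgroup.mem_sup_right hw))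
  have h2 : Q.map (MulAut.conj (g * t⁻¹)).toMonoidHom = Q := by
    apply hQ.2
    rintro _ ⟨w, hw, rfl⟩
    have h3 : t⁻¹ * w * t⁻¹⁻¹ ∈ B := ⟨w, hw, rfl⟩
    have h4 := hTP _ (hT (Subgroup.mem_sup_left h3))
    simpa [mul_assoc] using h4
  have h3 : g ∈ Subgroup.normalizer (Q : Set G) := Subgroup.mem_normalizer_iff_map_conj_eq.mpr h1
  have h4 : g * t⁻¹ ∈ Subgroup.normalizer (Q : Set G) := Subgroup.mem_normalizer_iff_map_conj_eq.mpr h2
  have h5 : t = (g * t⁻¹)⁻¹ * g := by group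
  rw [h5]
  exact Subgroup.mul_mem _ (Subgroup.inv_mem _ h4) h3

theorem conj_pow' (t u : G) (m : ℕ) : (t⁻¹ * u * t) ^ m = t⁻¹ * u ^ m * t := by
  have := conj_pow (a := t⁻¹) (b := u) (i := m)
  simpa using this

theorem orderOf_conj' (t u : G) : orderOf (t⁻¹ * u * t) = orderOf u := by
  have := MulEquiv.orderOf_eq (MulAut.conj t⁻¹) u
  simpa using this

/-- The key computation. -/
theorem transfer_ne_one (P : Sylow p G) {Q : Subgroup G} (hQ : IsWeaklyClosed Q (P : Subgroup G))
    (h : ∀ u ∈ (P : Subgroup G), ∀ z ∈ Q, (fun y : G => y⁻¹ * z⁻¹ * y * z)^[p - 1] u = 1)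
    {H : Subgroup G} (hH : H = Subgroup.normalizer (Q : Set G))
    (θ : H →* Multiplicative (ZMod p)) (hθ : θ ≠ 1) :
    ∃ x : H, MonoidHom.transfer θ x ≠ 1 := by
  classical
  have hPH : (P : Subgroup G) ≤ H := hH ▸ normalizer_of_weaklyClosed hQ
  have hQH : Q ≤ H := hQ.1.trans hPH
  letI : Fintype (G ⧸ H) := Fintype.ofFinite _
  set Ψ := ext1 H θ with hΨ
  have hAp : IsPGroup p (Multiplicative (ZMod p)) := isPGroup_multiplicative_zmod
  obtain ⟨x₀, hx₀P, hx₀⟩ : ∃ x₀ : G, x₀ ∈ (P : Subgroup G) ∧ Ψ x₀ ≠ 1 := by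
    by_contra hcon
    push Not at hcon
    apply hθ
    refine hom_ext_of_sylow hAp θ 1 (P.subtype hPH) ?_
    intro x hx
    have h1 : (x : G) ∈ (P : Subgroup G) := hx
    have := hcon x h1
    rwa [hΨ, ext1_coe] at this
  obtain ⟨x, hxX, hmin⟩ := Set.exists_min_image {x : G | x ∈ (P : Subgroup G) ∧ Ψ x ≠ 1} orderOf
    (Set.toFinite _) ⟨x₀, hx₀P, hx₀⟩
  obtain ⟨hxP, hxΨ⟩ := hxX
  have hmin' : ∀ v ∈ (P : Subgroup G), orderOf v < orderOf x → Ψ v = 1 := by
    intro v hv hlt
    by_contra hne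
    exact absurd (hmin v ⟨hv, hne⟩) (not_le.mpr hlt)
  have hxH : x ∈ H := hPH hxP
  have hx1 : x ≠ 1 := by
    rintro rfl
    apply hxΨ
    rw [hΨ, ext1_of_mem θ H.one_mem]
    exact map_one θ
  obtain ⟨k, hk⟩ := P.2 ⟨x, hxP⟩
  have hk' : x ^ p ^ k = 1 := by simpa using congrArg Subtype.val hk
  have hn : ∀ q : G ⧸ H, Function.minimalPeriod (x • ·) q ≠ 1 →
      Ψ (q.out⁻¹ * x ^ Function.minimalPeriod (x • ·) q * q.out) = 1 := by
    intro q hq
    set n := Function.minimalPeriod (x • ·) q with hn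
    have hw : q.out⁻¹ * x ^ n * q.out ∈ H := QuotientGroup.out_conj_pow_minimalPeriod_mem H x q
    have hper : Function.IsPeriodicPt (x • ·) (p ^ k) q := by
      show (x • ·)^[p ^ k] q = q
      rw [smul_iterate]
      show x ^ p ^ k • q = q
      rw [hk', one_smul]
    have hnd : n ∣ p ^ k := hper.minimalPeriod_dvd
    obtain ⟨j, -, hj⟩ := (Nat.dvd_prime_pow hp.out).mp hnd
    have hj0 : j ≠ 0 := by
      rintro rfl
      apply hq
      rw [hj, pow_zero]
    have hpn : p ∣ n := by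
      rw [hj]
      exact dvd_pow_self p hj0
    have hn0 : n ≠ 0 := by
      rw [hj]
      exact pow_ne_zero _ hp.out.ne_zero
    have hord : orderOf x ∣ p ^ k := orderOf_dvd_of_pow_eq_one hk'
    obtain ⟨a, -, ha⟩ := (Nat.dvd_prime_pow hp.out).mp hord
    have ha0 : a ≠ 0 := by
      rintro rfl
      rw [pow_zero] at ha
      exact hx1 (orderOf_eq_one_iff.mp ha)
    have hpo : p ∣ orderOf x := by
      rw [ha]
      exact dvd_pow_self p ha0
    have hlt : orderOf (x ^ n) < orderOf x := by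
      rw [orderOf_pow' x hn0]
      apply Nat.div_lt_self (orderOf_pos x)
      have h1 : p ∣ (orderOf x).gcd n := Nat.dvd_gcd hpo hpn
      have h2 : 0 < (orderOf x).gcd n := Nat.gcd_pos_of_pos_left _ (orderOf_pos x)
      have h3 := Nat.le_of_dvd h2 h1
      have h4 := hp.out.two_le
      omega
    -- conjugate into `P`
    have hgp : IsPGroup p (Subgroup.zpowers (⟨q.out⁻¹ * x ^ n * q.out, hw⟩ : H)) := by
      have hwp : (⟨q.out⁻¹ * x ^ n * q.out, hw⟩ : H) ^ p ^ k = 1 := by
        apply Subtype.ext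
        show (q.out⁻¹ * x ^ n * q.out) ^ p ^ k = 1
        rw [conj_pow', ← pow_mul, mul_comm, pow_mul, hk']
        simp
      obtain ⟨j', -, hj'⟩ := (Nat.dvd_prime_pow hp.out).mp (orderOf_dvd_of_pow_eq_one hwp)
      apply IsPGroup.of_card (n := j')
      rw [Nat.card_zpowers, hj']
    obtain ⟨T, hT⟩ := hgp.exists_le_sylow
    obtain ⟨c, hc⟩ := MulAction.exists_smul_eq H (P.subtype hPH) T
    have hwT : (⟨q.out⁻¹ * x ^ n * q.out, hw⟩ : H) ∈ T := hT (Subgroup.mem_zpowers _)
    rw [← hc, Cfsg.Agent.Lib.Transfer.Frobenius.mem_smul_sylow_iff] at hwT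
    have hv : (c : G)⁻¹ * (q.out⁻¹ * x ^ n * q.out) * c ∈ (P : Subgroup G) := hwT
    have hordv : orderOf ((c : G)⁻¹ * (q.out⁻¹ * x ^ n * q.out) * c) = orderOf (x ^ n) := by
      rw [orderOf_conj', orderOf_conj']
    have h1 := hmin' _ hv (by rw [hordv]; exact hlt)
    rwa [hΨ, ext1_conj θ c.2] at h1
  refine ⟨⟨x, hxH⟩, ?_⟩
  show MonoidHom.transfer θ x ≠ 1
  rw [transfer_eq_prod_fixed θ x hn]
  set F : Finset (G ⧸ H) := univ.filter (fun y : G ⧸ H => x • y = y) with hF
  set y₀ : G ⧸ H := ((1 : G) : G ⧸ H) with hy₀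
  have hHfix : ∀ c ∈ H, c • y₀ = y₀ := by
    intro c hc
    rw [hy₀]
    show ((c * 1 : G) : G ⧸ H) = ((1 : G) : G ⧸ H)
    rw [QuotientGroup.eq]
    simpa using hc
  have hy₀F : y₀ ∈ F := Finset.mem_filter.mpr ⟨Finset.mem_univ _, hHfix x hxH⟩
  rw [← Finset.mul_prod_erase F _ hy₀F]
  have hterm : ext1 H θ (y₀.out⁻¹ * x * y₀.out) = Ψ x := by
    rw [hy₀, ext1_out]
    simp [hΨ]
  rw [hterm]
  have hfixQ : ∀ y : G ⧸ H, (∀ z ∈ Q, z • y = y) → y = y₀ := by
    intro y hy
    obtain ⟨t, rfl⟩ := QuotientGroup.mk_surjective y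
    have h1 : t ∈ H := by
      rw [hH]
      apply mem_normalizer_of_conj_le P hQ
      intro z hz
      rw [← hH]
      have h2 : ((z * t : G) : G ⧸ H) = (t : G ⧸ H) := hy z hz
      rw [QuotientGroup.eq] at h2
      have h3 := H.inv_mem h2
      have e : ((z * t)⁻¹ * t)⁻¹ = t⁻¹ * z * t := by group
      rwa [e] at h3
    rw [hy₀, QuotientGroup.eq]
    simpa using H.inv_mem h1
  have hrest : ∏ y ∈ F.erase y₀, ext1 H θ (y.out⁻¹ * x * y.out) = 1 := by
    set K : G ⧸ H → Subgroup G := fun y => (P : Subgroup G) ⊓ MulAction.stabilizer G y with hK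
    have hKmem : ∀ (y : G ⧸ H) (u : G), u ∈ K y ↔ u ∈ (P : Subgroup G) ∧ u • y = y := fun y u => Iff.rfl
    rw [← Finset.prod_fiberwise_of_maps_to (s := F.erase y₀) (t := (F.erase y₀).image K) (g := K)
      (fun y hy => Finset.mem_image_of_mem _ hy)]
    apply Finset.prod_eq_one
    intro K' hK'
    obtain ⟨y₁, hy₁, rfl⟩ := Finset.mem_image.mp hK'
    have hy₁ne : y₁ ≠ y₀ := (Finset.mem_erase.mp hy₁).1
    have hKP : K y₁ ≤ (P : Subgroup G) := inf_le_left
    obtain ⟨z, hzQ, hzK, hzN⟩ : ∃ z ∈ Q, z ∉ K y₁ ∧ z ∈ Subgroup.normalizer (K y₁ : Set G) := by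
      have hnle : ¬ Q ≤ K y₁ := by
        intro hle
        exact hy₁ne (hfixQ y₁ (fun z hz => (hle hz).2))
      have hSp : IsPGroup p (Q ⊔ K y₁ : Subgroup G) := P.2.to_le (sup_le hQ.1 hKP)
      have hlt : K y₁ < Q ⊔ K y₁ := by
        refine lt_of_le_of_ne le_sup_right ?_
        intro he
        apply hnle
        rw [he]
        exact le_sup_left
      obtain ⟨w, hwS, hwK, hwN⟩ := Cfsg.Agent.Lib.Transfer.Frobenius.exists_mem_normalizer_of_lt hSp hlt
      have hLE : K y₁ ≤ Subgroup.normalizer (Q : Set G) := hKP.trans (hH ▸ hPH)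
      have h1 : w ∈ ((Q ⊔ K y₁ : Subgroup G) : Set G) := hwS
      rw [Subgroup.coe_mul_of_right_le_normalizer_left Q (K y₁) hLE] at h1
      obtain ⟨z, hz, k, hk, rfl⟩ := Set.mem_mul.mp h1
      refine ⟨z, hz, ?_, ?_⟩
      · intro hzK
        exact hwK ((K y₁).mul_mem hzK hk)
      · have h2 : z = z * k * k⁻¹ := by group
        rw [h2]
        exact Subgroup.mul_mem _ hwN (Subgroup.le_normalizer ((K y₁).inv_mem hk))
    have hzP : z ∈ (P : Subgroup G) := hQ.1 hzQ
    have hzH : z ∈ H := hPH hzP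
    obtain ⟨b, hb⟩ := P.2 ⟨z, hzP⟩
    have hb' : z ^ p ^ b = 1 := by simpa using congrArg Subtype.val hb
    have hσ : (MulAction.toPerm z : Equiv.Perm (G ⧸ H)) ^ (p ^ b) = 1 := by
      ext y
      show ((MulAction.toPerm z : Equiv.Perm (G ⧸ H)) ^ (p ^ b)) y = y
      rw [← Equiv.Perm.iterate_eq_pow, iterate_toPerm, hb', one_smul]
    have hxK : ∀ y ∈ (F.erase y₀).filter (fun y => K y = K y₁), x ∈ K y₁ := by
      intro y hy
      obtain ⟨hy1, hy2⟩ := Finset.mem_filter.mp hy
      rw [← hy2]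
      exact ⟨hxP, (Finset.mem_filter.mp (Finset.mem_erase.mp hy1).2).2⟩
    refine prod_eq_one_of_no_fixed hp.out (MulAction.toPerm z) (b := b) hσ _ _ ?_ ?_ ?_
    · intro y hy
      obtain ⟨hy1, hy2⟩ := Finset.mem_filter.mp hy
      have hy3 : y ≠ y₀ := (Finset.mem_erase.mp hy1).1
      have hKz : K (z • y) = K y₁ := by
        ext u
        rw [hKmem]
        constructor
        · rintro ⟨h1, h2⟩
          have h3 : z⁻¹ * u * z ∈ K y := by
            refine ⟨(P : Subgroup G).mul_mem ((P : Subgroup G).mul_mem ((P : Subgroup G).inv_mem hzP) h1) hzP, ?_⟩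
            show (z⁻¹ * u * z) • y = y
            rw [mul_smul, mul_smul, h2, inv_smul_smul]
          rw [hy2] at h3
          have h4 := (Subgroup.mem_normalizer_iff.mp hzN _).mp h3
          have e : z * (z⁻¹ * u * z) * z⁻¹ = u := by group
          rwa [e] at h4
        · intro h1
          have h2 := (Subgroup.mem_normalizer_iff.mp (Subgroup.inv_mem _ hzN) _).mp h1
          have e : z⁻¹ * u * z⁻¹⁻¹ = z⁻¹ * u * z := by group
          rw [e, ← hy2] at h2
          refine ⟨hKP h1, ?_⟩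
          have h3 : (z⁻¹ * u * z) • y = y := h2.2
          rw [mul_smul, mul_smul] at h3
          show u • z • y = z • y
          have h4 := congrArg (fun w => z • w) h3
          simpa using h4
      refine Finset.mem_filter.mpr ⟨Finset.mem_erase.mpr ⟨?_, Finset.mem_filter.mpr ⟨Finset.mem_univ _, ?_⟩⟩, hKz⟩
      · intro h1
        apply hy3
        have h2 : z • y = y₀ := h1
        have h3 := congrArg (fun w => z⁻¹ • w) h2
        simp only [inv_smul_smul] at h3
        rw [h3]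
        exact hHfix _ (H.inv_mem hzH)
      · have h1 : x ∈ K (z • y) := by
          rw [hKz]
          exact hxK y hy
        exact h1.2
    · intro y hy h1
      obtain ⟨-, hy2⟩ := Finset.mem_filter.mp hy
      apply hzK
      rw [← hy2]
      exact ⟨hzP, h1⟩
    · intro y hy
      obtain ⟨hy1, hy2⟩ := Finset.mem_filter.mp hy
      set t := y.out with ht
      have hyt : (t : G ⧸ H) = y := QuotientGroup.out_eq' y
      have hKH : ∀ u ∈ K y₁, t⁻¹ * u * t ∈ H := by
        intro u hu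
        rw [← hy2] at hu
        have h1 : u • y = y := hu.2
        rw [← hyt] at h1
        have h2 : ((u * t : G) : G ⧸ H) = (t : G ⧸ H) := h1
        rw [QuotientGroup.eq] at h2
        have h3 := H.inv_mem h2
        have e : ((u * t)⁻¹ * t)⁻¹ = t⁻¹ * u * t := by group
        rwa [e] at h3
      have hτmem : ∀ u ∈ K y₁, z⁻¹ * u * z ∈ K y₁ := by
        intro u hu
        have h2 := (Subgroup.mem_normalizer_iff.mp (Subgroup.inv_mem _ hzN) _).mp hu
        simpa using h2
      let τ : K y₁ →* K y₁ := MonoidHom.mk' (fun u => ⟨z⁻¹ * u * z, hτmem u u.2⟩) (by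
        intro a b
        apply Subtype.ext
        show z⁻¹ * (a * b) * z = (z⁻¹ * a * z) * (z⁻¹ * b * z)
        group)
      let φ : K y₁ → ZMod p := fun u => Multiplicative.toAdd (Ψ (t⁻¹ * u * t))
      have hφ : ∀ a b, φ (a * b) = φ a + φ b := by
        intro a b
        show Multiplicative.toAdd (Ψ (t⁻¹ * (a * b) * t)) = _
        have e : t⁻¹ * (a * b : G) * t = (t⁻¹ * a * t) * (t⁻¹ * b * t) := by group
        rw [e, hΨ, ext1_mul θ (hKH a a.2) (hKH b b.2), toAdd_mul]
      let xt : K y₁ := ⟨x, hxK y hy⟩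
      have hit : ∀ i : ℕ, ((τ^[i] xt : K y₁) : G) = (z ^ i)⁻¹ * x * z ^ i := by
        intro i
        induction i with
        | zero => simp [xt]
        | succ i ih =>
          rw [Function.iterate_succ_apply']
          show z⁻¹ * ((τ^[i] xt : K y₁) : G) * z = _
          rw [ih, pow_succ]
          group
      have hval : ∀ i : ℕ, ext1 H θ (((MulAction.toPerm z : Equiv.Perm (G ⧸ H))^[i] y).out⁻¹ * x *
          ((MulAction.toPerm z : Equiv.Perm (G ⧸ H))^[i] y).out) = Multiplicative.ofAdd (φ (τ^[i] xt)) := by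
        intro i
        rw [iterate_toPerm]
        have h1 : z ^ i • y = ((z ^ i * t : G) : G ⧸ H) := by
          rw [← hyt]
          rfl
        rw [h1, ext1_out]
        show _ = Multiplicative.ofAdd (Multiplicative.toAdd (Ψ (t⁻¹ * ((τ^[i] xt : K y₁) : G) * t)))
        rw [hit, ofAdd_toAdd]
        congr 1
        group
      have hcoe : ∀ k : ℕ, (((fun y => y⁻¹ * τ y)^[k] xt : K y₁) : G) = (fun y : G => y⁻¹ * z⁻¹ * y * z)^[k] x := by
        intro k
        induction k with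
        | zero => rfl
        | succ k ih =>
          rw [Function.iterate_succ_apply', Function.iterate_succ_apply', ← ih]
          set w := (fun y => y⁻¹ * τ y)^[k] xt
          show (w : G)⁻¹ * (z⁻¹ * w * z) = (w : G)⁻¹ * z⁻¹ * w * z
          simp only [mul_assoc]
      have h1 : (fun y => y⁻¹ * τ y)^[p - 1] xt = 1 := by
        apply Subtype.ext
        rw [hcoe]
        exact h x hxP z hzQ
      have h2 : ∏ i ∈ range p, ext1 H θ (((MulAction.toPerm z : Equiv.Perm (G ⧸ H))^[i] y).out⁻¹ * x *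
          ((MulAction.toPerm z : Equiv.Perm (G ⧸ H))^[i] y).out) =
          Multiplicative.ofAdd (∑ i ∈ range p, φ (τ^[i] xt)) := by
        rw [ofAdd_sum]
        exact Finset.prod_congr rfl fun i _ => hval i
      rw [h2, sum_iterate_eq τ φ hφ xt, h1]
      show Multiplicative.ofAdd (Multiplicative.toAdd (Ψ (t⁻¹ * ((1 : K y₁) : G) * t))) = 1
      have e : t⁻¹ * ((1 : K y₁) : G) * t = 1 := by simp
      rw [e, ofAdd_toAdd, hΨ, ext1_of_mem θ H.one_mem]
      exact map_one θ
  rw [hrest, mul_one]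
  exact hxΨ

/-- Transfer is multiplicative in the homomorphism. -/
theorem transfer_mul' {H : Subgroup G} {A : Type*} [CommGroup A] (θ₁ θ₂ : H →* A) (g : G) :
    MonoidHom.transfer (θ₁ * θ₂) g = MonoidHom.transfer θ₁ g * MonoidHom.transfer θ₂ g := by
  classical
  letI : Fintype (Quotient (MulAction.orbitRel (Subgroup.zpowers g) (G ⧸ H))) := Fintype.ofFinite _
  rw [MonoidHom.transfer_eq_prod_quotient_orbitRel_zpowers_quot,
    MonoidHom.transfer_eq_prod_quotient_orbitRel_zpowers_quot,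
    MonoidHom.transfer_eq_prod_quotient_orbitRel_zpowers_quot, ← Finset.prod_mul_distrib]
  rfl

/-- **Wielandt**: the extension property. -/
theorem homExtends_normalizer (P : Sylow p G) {Q : Subgroup G} (hQ : IsWeaklyClosed Q (P : Subgroup G))
    (h : ∀ u ∈ (P : Subgroup G), ∀ z ∈ Q, (fun y : G => y⁻¹ * z⁻¹ * y * z)^[p - 1] u = 1) :
    HomExtends p (Subgroup.normalizer (Q : Set G)) := by
  classical
  set H : Subgroup G := Subgroup.normalizer (Q : Set G) with hH
  let Tr : (H →* Multiplicative (ZMod p)) → (H →* Multiplicative (ZMod p)) :=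
    fun θ => (MonoidHom.transfer θ).comp H.subtype
  have hTr : ∀ θ₁ θ₂, Tr (θ₁ * θ₂) = Tr θ₁ * Tr θ₂ := by
    intro θ₁ θ₂
    ext x
    exact congrArg _ (transfer_mul' θ₁ θ₂ x)
  have hinj : Function.Injective Tr := by
    intro θ₁ θ₂ he
    by_contra hne
    have hne' : θ₁ * θ₂⁻¹ ≠ 1 := by
      intro h1
      exact hne (mul_inv_eq_one.mp h1)
    obtain ⟨x, hx⟩ := transfer_ne_one P hQ h hH _ hne'
    apply hx
    have h1 : Tr (θ₁ * θ₂⁻¹) * Tr θ₂ = Tr θ₂ := by
      rw [← hTr, inv_mul_cancel_right, he]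
    have h2 : Tr (θ₁ * θ₂⁻¹) = 1 := mul_eq_right.mp h1
    have h3 := DFunLike.congr_fun h2 x
    exact h3
  haveI : Finite (H →* Multiplicative (ZMod p)) := by
    apply Finite.of_injective (fun θ : H →* Multiplicative (ZMod p) => (θ : H → Multiplicative (ZMod p)))
    exact DFunLike.coe_injective
  have hsurj : Function.Surjective Tr := Finite.injective_iff_surjective.mp hinj
  intro f
  obtain ⟨θ, hθ⟩ := hsurj f
  exact ⟨MonoidHom.transfer θ, fun x => DFunLike.congr_fun hθ x⟩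

/-- **Wielandt's theorem.** -/
theorem pResidualOf_normalizer (P : Sylow p G) {Q : Subgroup G} (hQ : IsWeaklyClosed Q (P : Subgroup G))
    (h : ∀ u ∈ (P : Subgroup G), ∀ z ∈ Q, (fun y : G => y⁻¹ * z⁻¹ * y * z)^[p - 1] u = 1) :
    (pResidual p ↥(Subgroup.normalizer (Q : Set G))).map (Subgroup.normalizer (Q : Set G)).subtype =
      pResidual p G ⊓ Subgroup.normalizer (Q : Set G) := by
  have hidx : ¬ p ∣ (Subgroup.normalizer (Q : Set G)).index := by
    intro hd
    exact P.not_dvd_index (hd.trans (Subgroup.index_dvd_of_le (normalizer_of_weaklyClosed hQ)))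
  exact (pResidual_inf_eq_of_homExtends _ hidx (homExtends_normalizer P hQ h)).symm

end Main

end Cfsg.Agent.Lib.FG7.Wielandt
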